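import Cfsg.Agent.H23.K0

/-! A complement to `Y` in the stabiliser of `B` (part S of S5567). -/

set_option autoImplicit false
open Cfsg BG Subgroup H01.XS Cfsg.Agent.H06.J Cfsg.Agent.H23.K

namespace H17.KS
universe u
variable {V : Type u} [AddCommGroup V] [Module (ZMod 2) V] [Finite V] {Γ : Type u} [Group Γ] [Finite Γ]
  {T : Γ → V →+ V} {d : Γ} {M K Y : Subgroup Γ} {β : V →+ V →+ ZMod 2} {q : V → ZMod 2} {B : AddSubgroup V}

theorem ti (g : Gj T d M β q) (x : Γ) (v : V) : T x⁻¹ (T x v) = v := by rw [← g.mul, inv_mul_cancel, g.one]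
theorem it (g : Gj T d M β q) (x : Γ) (v : V) : T x (T x⁻¹ v) = v := by rw [← g.mul, mul_inv_cancel, g.one]

def st (g : Gj T d M β q) (W : AddSubgroup V) : Subgroup Γ where
  carrier := {x | ∀ v ∈ W, T x v ∈ W}
  one_mem' := fun v hv => by rwa [g.one]
  mul_mem' := fun ha hb v hv => by rw [g.mul]; exact ha _ (hb v hv)
  inv_mem' := fun {x} hx => by
    have : ∀ n : ℕ, ∀ v ∈ W, T (x ^ n) v ∈ W := fun n => by
      induction n with
      | zero => intro v hv; rwa [pow_zero, g.one]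
      | succ n ih => intro v hv; rw [pow_succ, g.mul]; exact ih _ (hx v hv)
    have e : x⁻¹ = x ^ (orderOf x - 1) := by
      rw [eq_comm, ← mul_eq_one_iff_eq_inv, ← pow_succ, Nat.sub_add_cancel (orderOf_pos x), pow_orderOf_eq_one]
    exact e ▸ this _

def im (T : Γ → V →+ V) (x : Γ) (B : AddSubgroup V) : AddSubgroup V := B.comap (T x⁻¹)

theorem st_im (g : Gj T d M β q) (x h : Γ) : h ∈ st g (im T x B) ↔ x⁻¹ * h * x ∈ st g B := by
  refine ⟨fun H v hv => ?_, fun H v hv => ?_⟩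
  · rw [g.mul, g.mul]; exact H (T x v) (by change T x⁻¹ (T x v) ∈ B; rwa [ti g])
  · have := H _ hv
    rwa [g.mul, g.mul, it g] at this

theorem cim (g : Gj T d M β q) (x : Γ) : Nat.card (im T x B) = Nat.card B :=
  Nat.card_congr ⟨fun v => ⟨_, v.2⟩, fun v => ⟨T x v, by change T x⁻¹ (T x v) ∈ B; rw [ti g]; exact v.2⟩,
    fun v => Subtype.ext (it g _ _), fun v => Subtype.ext (ti g _ _)⟩

theorem main (g : Gj T d M β q) (k : Hk d M K Y) (p : Pj T d K Y q B) (fB : ∀ x, (∀ v ∈ B, T x v = v) → x ∈ Y)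
    (ou : ∃ x, x ∉ M ∧ x * x = 1) (i77 : (st g B).index = 77) : ∃ L B', Sg T d M K Y L q B B' := by
  classical
  haveI : Fact (Nat.Prime 5) := ⟨by norm_num⟩
  have hx := k.hx
  haveI nM : M.Normal := normal_of_index_eq_two g.Mi
  have cK : Nat.card K = 17280 := by
    have a := M.card_mul_index
    have b := (K.subgroupOf M).card_mul_index
    rw [Nat.card_congr (subgroupOfEquivOfLe k.KM).toEquiv, show (K.subgroupOf M).index = 77 from k.iK] at b
    rw [g.Mi, g.cΓ] at a; omega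
  have cH : ∀ H : Subgroup Γ, Nat.card ↥(K ⊓ H) * (K ⊓ H).relIndex K = 17280 := fun H => by
    rw [← cK, ← Nat.card_congr (subgroupOfEquivOfLe (inf_le_left : K ⊓ H ≤ K)).toEquiv]; exact card_mul_index _
  have nS : ∀ x ∈ st g B, ∀ y ∈ Y, x * y * x⁻¹ ∈ Y := fun x h y hy => fB _ fun v hv => by
    rw [g.mul, g.mul, (p.mB _).1 ((st g B).inv_mem h v hv) y hy, it g]
  have sM : st g B ⊓ M = K := by
    refine (k.mx (st g B ⊓ M) (le_inf (fun x h => p.KB x h) k.KM) inf_le_right).resolve_right fun e => ?_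
    obtain ⟨x, h, y, hy, n⟩ := k.nY
    exact n (nS x (e.ge h).1 y hy)
  have sK : ∀ x ∈ M, ∀ h ∈ M, h ∈ st g (im T x B) ↔ h ∈ cj x K := fun x hx h hh => by
    rw [st_im, mem_cj, ← sM, mem_inf, and_iff_left (M.mul_mem (M.mul_mem (M.inv_mem hx) hh) hx)]
  have fr : ∀ x, B ⊓ im T x B = ⊥ → ∀ y ∈ Y, y ∈ st g (im T x B) → y = 1 := fun x e y hy h => g.fai y fun v => by
    obtain ⟨⟨a, b⟩, rfl⟩ := ((Nat.bijective_iff_injective_and_card _).2 ⟨AddSubgroup.add_injective_of_disjoint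
      (disjoint_iff.2 e), by rw [Nat.card_prod, cim g, p.cB, g.card]⟩).2 v
    have : b.1 + T y b = 0 := (AddSubgroup.mem_bot.1 (e.le ⟨p.cm y hy b, add_mem b.2 (h _ b.2)⟩) :)
    have t : b.1 + b.1 = 0 := by rw [← two_smul (ZMod 2), show (2 : ZMod 2) = 0 from rfl, zero_smul]
    rw [map_add, (p.mB _).1 a.2 y hy, add_left_cancel (this.trans t.symm)]
  haveI nY : (Y.subgroupOf K).Normal := ⟨fun y hy x => hx.nY x x.2 y hy⟩
  have cq : Nat.card (K ⧸ Y.subgroupOf K) = 1080 := by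
    have := (Y.subgroupOf K).card_mul_index
    rw [Nat.card_congr (subgroupOfEquivOfLe hx.YK).toEquiv, hx.cY, cK, index_eq_card] at this; omega
  have ij : ∀ H : Subgroup Γ, (∀ y ∈ Y, y ∈ H → y = 1) →
      Function.Injective ((QuotientGroup.mk' (Y.subgroupOf K)).comp (inclusion (inf_le_left : K ⊓ H ≤ K))) := fun H h =>
    (injective_iff_map_eq_one _).2 fun a e => Subtype.ext (h _ ((QuotientGroup.eq_one_iff
      (N := Y.subgroupOf K) (inclusion inf_le_left a)).1 e) a.2.2)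
  obtain ⟨g0, m0, i16, orb⟩ := k.orb
  have c0 : Nat.card ↥(K ⊓ cj g0 K) = 1080 := by have := cH (cj g0 K); rw [i16] at this; omega
  have d0 : d ∈ cj g0 K := by rw [mem_cj, mul_assoc, ← g.Md g0 m0, inv_mul_cancel_left]; exact hx.dK
  have f5 : ∀ f ∈ K, orderOf f = 5 → ∀ y ∈ Y, f * y * f⁻¹ = y → y = 1 := fun f hf o y hy c => by
    by_contra n
    let A : MulAction K Γ := MulAction.compHom Γ ((MulAut.conj (G := Γ)).comp K.subtype)
    have e := @MulAction.index_stabilizer K Γ _ A y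
    have e2 : @MulAction.orbit K Γ A.toSMul y = (Y : Set Γ) \ {1} := by
      ext x
      refine ⟨?_, fun ⟨a, b⟩ => ?_⟩
      · rintro ⟨l, rfl⟩
        exact ⟨hx.nY l l.2 y hy, fun h => n (conj_eq_one_iff.1 h)⟩
      · obtain ⟨l, hl, h⟩ := hx.tr y hy x a n b
        exact ⟨⟨l, hl⟩, h⟩
    rw [e2, Set.ncard_sdiff_singleton_of_mem (one_mem Y), show (Y : Set Γ).ncard = 16 from hx.cY] at e
    have a := (@MulAction.stabilizer K Γ _ A y).card_mul_index
    have b := orderOf_dvd_natCard (⟨⟨f, hf⟩, c⟩ : @MulAction.stabilizer K Γ _ A y)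
    rw [← orderOf_coe, ← orderOf_coe] at b
    rw [e, cK] at a
    rw [show orderOf _ = 5 from o] at b; omega
  have y0 : ∀ y ∈ Y, y ∈ cj g0 K → y = 1 := by
    obtain ⟨f, hf⟩ := exists_prime_orderOf_dvd_card' (G := ↥(K ⊓ cj g0 K)) 5 (by rw [c0]; norm_num)
    rw [← orderOf_coe] at hf
    letI := Fintype.ofFinite ↥(Y ⊓ cj g0 K)
    let σ : Function.End ↥(Y ⊓ cj g0 K) := fun y => ⟨f * y * (f : Γ)⁻¹, hx.nY f f.2.1 y y.2.1,
      (cj g0 K).mul_mem ((cj g0 K).mul_mem f.2.2 y.2.2) ((cj g0 K).inv_mem f.2.2)⟩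
    have pw : ∀ n (y : ↥(Y ⊓ cj g0 K)), (((σ ^ n) y : ↥(Y ⊓ cj g0 K)) : Γ) = (f : Γ) ^ n * y * ((f : Γ) ^ n)⁻¹ := fun n => by
      induction n with
      | zero => intro y; simp; rfl
      | succ n ih => intro y; rw [pow_succ, pow_succ]; exact (ih (σ y)).trans (by simp [σ, mul_assoc])
    have m := Equiv.Perm.card_fixedPoints_modEq (f := σ) (p := 5) (n := 1) (funext fun y => Subtype.ext (by
      rw [pw, pow_one, ← hf, pow_orderOf_eq_one]; simp; rfl))
    have o : Fintype.card σ.fixedPoints = 1 := Fintype.card_eq_one_iff.2 ⟨⟨1, Subtype.ext (by simp [σ])⟩,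
      fun y => Subtype.ext (Subtype.ext (f5 f f.2.1 hf _ y.1.2.1 (congrArg Subtype.val y.2)))⟩
    rw [o, ← Nat.card_eq_fintype_card] at m
    have dv := card_dvd_of_le (inf_le_left : Y ⊓ cj g0 K ≤ Y)
    rw [hx.cY] at dv
    have l := Nat.le_of_dvd (by norm_num) dv
    have : Nat.card ↥(Y ⊓ cj g0 K) = 1 ∨ Nat.card ↥(Y ⊓ cj g0 K) = 16 := by
      generalize Nat.card ↥(Y ⊓ cj g0 K) = n at *
      unfold Nat.ModEq at m
      interval_cases n <;> omega
    rcases this with h | h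
    · exact fun y a b => (eq_bot_iff_forall _).1 (Subgroup.card_eq_one.1 h) y ⟨a, b⟩
    · exfalso
      have le : Y ≤ cj g0 K := (eq_of_le_of_card_ge inf_le_left (by rw [h, hx.cY])).ge.trans inf_le_right
      obtain ⟨φ, su, ker⟩ := k.ph
      have := (((K ⊓ cj g0 K).subgroupOf K).map φ).index_dvd_card
      rw [index_map_eq _ su (fun a ha => by
        obtain ⟨y, hy, i, e⟩ := (ker a).1 ha
        exact ⟨a.2, by rw [Subgroup.coe_subtype, e]; exact mul_mem (le hy) (pow_mem d0 i)⟩),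
        show ((K ⊓ cj g0 K).subgroupOf K).index = 16 from i16, Nat.card_eq_fintype_card, card_alternatingGroup] at this
      exact absurd this (by decide)
  have cv : ∀ x ∈ K, ∃ l ∈ K ⊓ cj g0 K, ∃ y ∈ Y, x = l * y := fun x h => by
    obtain ⟨l, e⟩ := ((Nat.bijective_iff_injective_and_card _).2 ⟨ij _ y0, c0.trans cq.symm⟩).2 (QuotientGroup.mk ⟨x, h⟩)
    exact ⟨l, l.2, (l : Γ)⁻¹ * x, (QuotientGroup.eq (s := Y.subgroupOf K) (a := inclusion inf_le_left l)).1 e, by simp⟩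
  have dj : B ⊓ im T g0 B = ⊥ := by
    rcases p.w64 (B ⊓ im T g0 B) (fun x h v hv => by
      obtain ⟨l, hl, y, hy, rfl⟩ := cv x h
      rw [g.mul, (p.mB _).1 hv.1 y hy]
      exact ⟨p.KB l hl.1 v hv.1, (sK g0 m0 l (k.KM hl.1)).2 hl.2 v hv.2⟩) with e | e | e
    · exact e
    · have := p.cB
      rw [top_le_iff.1 (e.ge.trans inf_le_left), AddSubgroup.card_top, g.card] at this; omega
    · have le : B ≤ im T g0 B := (AddSubgroup.eq_of_le_of_card_ge inf_le_left (by rw [e, p.cB])).ge.trans inf_le_right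
      have : g0 ∈ K := sM.le ⟨(st g B).inv_mem_iff.1 fun v hv => le hv, m0⟩
      rw [relIndex_eq_one.2 (le_inf le_rfl fun x h => mem_cj.2 (K.mul_mem (K.mul_mem (K.inv_mem this) h) this))] at i16
      omega
  obtain ⟨x, xM, x2⟩ := ou
  obtain ⟨g1, s1, m1, q1⟩ : ∃ g1 ∈ st g B, g1 ∉ M ∧ g1 * g1 = 1 := by
    obtain ⟨c, hc⟩ := (IsPGroup.of_card (G := zpowers x) (p := 2) (n := 1) (by
      rw [Nat.card_zpowers, pow_one]; exact orderOf_eq_prime (by rwa [pow_two]) fun e => xM (e ▸ one_mem M))).nonempty_fixed_point_of_prime_not_dvd_card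
      (Γ ⧸ st g B) (by rw [← index_eq_card, i77]; norm_num)
    obtain ⟨c, rfl⟩ := QuotientGroup.mk_surjective c
    have := QuotientGroup.eq.1 (hc ⟨x, mem_zpowers x⟩).symm
    refine ⟨c⁻¹ * (x * c), this, fun h => xM (by simpa [mul_assoc] using nM.conj_mem _ h c), ?_⟩
    calc _ = c⁻¹ * (x * x) * c := by group
      _ = 1 := by simp [x2]
  have mm := nM.conj_mem g0 m0 g1
  have d1 : B ⊓ im T (g1 * g0 * g1⁻¹) B = ⊥ := (AddSubgroup.eq_bot_iff_forall _).2 fun v hv => by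
    have a : T (g1 * g0 * g1⁻¹)⁻¹ v ∈ B := hv.2
    have b := (st g B).inv_mem s1 _ a
    rw [← g.mul, show g1⁻¹ * (g1 * g0 * g1⁻¹)⁻¹ = g0⁻¹ * g1⁻¹ by group, g.mul] at b
    have : T g1⁻¹ v = 0 := (AddSubgroup.mem_bot.1 (dj.le ⟨(st g B).inv_mem s1 v hv.1, b⟩) :)
    rw [← it g g1 v, this, map_zero]
  have KS : K ≤ st g B := sM.ge.trans inf_le_left
  obtain ⟨l, lB, lB', lM, l2⟩ : ∃ l ∈ st g B, l ∈ st g (im T g0 B) ∧ l ∉ M ∧ l * l ∈ Y := by
    rcases orb _ mm with h | ⟨a, ha, b, hb, e⟩ | h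
    · have := p.cB
      rw [← inf_of_le_left (show B ≤ im T _ B from fun v hv => KS (K.inv_mem h) v hv), d1, AddSubgroup.card_bot] at this; omega
    · obtain ⟨l, hl, y, hy, e'⟩ := cv _ (K.inv_mem ha)
      refine ⟨y * g1, mul_mem (KS (hx.YK hy)) s1, ?_, fun h => m1 ((mul_mem_cancel_left (k.KM (hx.YK hy))).1 h), ?_⟩
      · have h2 : a⁻¹ * g1 ∈ st g (im T g0 B) := (st_im g _ _).2 (by
          have : g0⁻¹ * (a⁻¹ * g1) * g0 = b * g1 := by
            calc _ = g0⁻¹ * a⁻¹ * (g1 * g0 * g1⁻¹) * g1 := by group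
              _ = _ := by rw [e]; group
          rw [this]; exact mul_mem (KS hb) s1)
        rw [e', mul_assoc] at h2
        exact (mul_mem_cancel_left ((sK g0 m0 l (k.KM hl.1)).2 hl.2)).1 h2
      · have := mul_mem hy (nS g1 s1 _ hy)
        rwa [inv_eq_of_mul_eq_one_right q1, mul_assoc g1, ← mul_assoc] at this
    · have c := cH (cj (g1 * g0 * g1⁻¹) K)
      have := card_dvd_of_injective _ (ij (cj (g1 * g0 * g1⁻¹) K) fun y hy h =>
        fr _ d1 y hy ((sK _ mm y (k.KM (hx.YK hy))).2 h))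
      rw [h] at c
      rw [cq, show Nat.card ↥(K ⊓ cj (g1 * g0 * g1⁻¹) K) = 288 by omega] at this
      exact absurd this (by norm_num)
  have LM : (st g B ⊓ st g (im T g0 B)) ⊓ M = K ⊓ cj g0 K := by
    ext h
    refine ⟨fun a => ⟨sM.le ⟨a.1.1, a.2⟩, (sK g0 m0 h a.2).1 a.1.2⟩, fun a => ⟨⟨KS a.1, (sK g0 m0 h (k.KM a.1)).2 a.2⟩, k.KM a.1⟩⟩
  have LY : (st g B ⊓ st g (im T g0 B)) ⊓ Y = ⊥ := (eq_bot_iff_forall _).2 fun y h => fr _ dj y h.2 h.1.2
  refine ⟨st g B ⊓ st g (im T g0 B), im T g0 B, (cim g g0).trans p.cB, dj, fun v hv => (g.qT _ v).symm.trans (p.qB _ hv),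
    fun x h => h.1, fun x h => h.2, (LM.ge ⟨hx.dK, d0⟩).1, LY, ?_, LM.le.trans inf_le_left, fun x h => ?_,
    l, ⟨lB, lB'⟩, lM, mem_bot.1 (LY.le ⟨mul_mem ⟨lB, lB'⟩ ⟨lB, lB'⟩, l2⟩)⟩
  · have a := (M.subgroupOf (st g B ⊓ st g (im T g0 B))).card_mul_index
    have b : M.relIndex (st g B ⊓ st g (im T g0 B)) ∣ 2 := g.Mi ▸ relIndex_dvd_index_of_normal M _
    have c : M.relIndex (st g B ⊓ st g (im T g0 B)) ≠ 1 := fun e => lM (relIndex_eq_one.1 e ⟨lB, lB'⟩)
    rw [show (M.subgroupOf _).index = 2 from ((Nat.dvd_prime Nat.prime_two).1 b).resolve_left c, ← inf_subgroupOf_left,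
      Nat.card_congr (subgroupOfEquivOfLe inf_le_left).toEquiv, LM, c0] at a
    omega
  · obtain ⟨l, hl, y, hy, e⟩ := cv x h
    exact ⟨l, (LM.ge hl).1, y, hy, e⟩

theorem s : SStmt.{u} := by
  intro G _ _ z Q V _ _ _ Γ _ _ f π ν T d M β q s K Y B A δ c h
  refine main s.gm c.hk c.pj h.fB c.ou ?_
  have su : Function.Surjective f := fun k => by
    obtain ⟨x, hx, e⟩ := s.sur k
    exact ⟨⟨x, hx⟩, (s.pf _).trans e⟩
  have e : (st s.gm B).comap f = (N_(A) ⊓ C_[z]).subgroupOf C_[z] := by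
    ext x; rw [mem_comap, mem_subgroupOf, mem_inf, and_iff_left x.2, h.mN x x.2, s.pf]; rfl
  have k : f.ker = Q.subgroupOf C_[z] := by ext x; rw [MonoidHom.mem_ker, s.pf, s.ker x x.2]; rfl
  have a := f.ker.card_mul_index
  rw [index_ker, f.range_eq_top.2 su, card_top, s.gm.cΓ, k, Nat.card_congr (subgroupOfEquivOfLe s.md.lx.le).toEquiv, s.card] at a
  have b := ((st s.gm B).comap f).card_mul_index
  rw [index_comap_of_surjective _ su, e, Nat.card_congr (subgroupOfEquivOfLe inf_le_right).toEquiv, h.cN] at b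
  omega

end H17.KS
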