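import Cfsg.Agent.H17.Stable
import Cfsg.Agent.H23.GW1
import Cfsg.Agent.H04.LinSyl
import Cfsg.Agent.H11.Ree4

/-!
# No quadratic action for `PSL₂(q)`, `q` odd, and Ree groups

* `H17.QP.comm_eq_bot_of_not_sec` : irreducible action, `SL₂(p)` not involved in `H/C_H(V)` gives no quadratic action.
-/

set_option autoImplicit false
set_option linter.unusedSectionVars false
open Cfsg Subgroup
open scoped MatrixGroups commutatorElement Matrix

namespace H17.QP
variable {G : Type*} [Group G] [Finite G] {p : ℕ} [Fact p.Prime]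

theorem sec_of_nat {V H X : Subgroup G} [hn : ((centralizer (V : Set G)).subgroupOf H).Normal] (hX : X ≤ H)
    (h : NatSL2 p V X) : Sec SL(2, ZMod p) (H ⧸ (centralizer (V : Set G)).subgroupOf H) := by
  obtain ⟨H₀, ψ, ι, h1, h2, h3, h4, h5⟩ := h
  let f : H₀ →* H ⧸ (centralizer (V : Set G)).subgroupOf H :=
    (QuotientGroup.mk' _).comp (Subgroup.inclusion (h1.trans hX))
  have hk : f.ker ≤ ψ.ker := by
    intro x hx
    have hc : (x : G) ∈ centralizer (V : Set G) :=
      (QuotientGroup.eq_one_iff (N := (centralizer (V : Set G)).subgroupOf H) (Subgroup.inclusion (h1.trans hX) x)).1 hx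
    have : ∀ y : Fin 2 → ZMod p, (ψ x : Matrix (Fin 2) (Fin 2) (ZMod p)) *ᵥ y = y := fun y => by
      have e := h5 x y
      rw [← hc _ (h4 _), mul_inv_cancel_right] at e
      exact (Multiplicative.ofAdd.injective (h3 e)).symm
    rw [MonoidHom.mem_ker]
    apply Subtype.ext
    apply Matrix.toLin'.injective
    refine LinearMap.ext fun y => ?_
    rw [Matrix.toLin'_apply, this, Matrix.toLin'_apply, Matrix.SpecialLinearGroup.coe_one, Matrix.one_mulVec]
  let e := QuotientGroup.quotientKerEquivRange f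
  refine ⟨f.range, (QuotientGroup.lift f.ker ψ hk).comp e.symm.toMonoidHom, ?_⟩
  intro s
  obtain ⟨x, rfl⟩ := h2 s
  exact ⟨e (x : H₀ ⧸ f.ker), by simp⟩

theorem comm_eq_bot_of_not_sec (hp : p ≠ 2) {V H : Subgroup G} (hV : IsElementaryAbelian p V)
    (hHV : H ≤ normalizer (V : Set G))
    (hirr : ∀ U : Subgroup G, U ≤ V → H ≤ normalizer (U : Set G) → U = ⊥ ∨ U = V)
    [hn : ((centralizer (V : Set G)).subgroupOf H).Normal]
    (hs : ¬ Sec SL(2, ZMod p) (H ⧸ (centralizer (V : Set G)).subgroupOf H)) {A : Subgroup G} (hA : A ≤ H)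
    (hq : ⁅⁅V, A⁆, A⁆ = ⊥) : ⁅V, A⁆ = ⊥ := by
  set C := (centralizer (V : Set G)).subgroupOf H with hC
  have h1 : ∀ a (ha : a ∈ A), (⟨a, hA ha⟩ : H) ∈ opMod p C := by
    intro a ha
    have haH := hA ha
    have hqa : ⁅⁅V, zpowers a⁆, zpowers a⁆ = ⊥ :=
      le_bot_iff.1 (hq ▸ commutator_mono (commutator_mono le_rfl (zpowers_le.2 ha)) (zpowers_le.2 ha))
    rw [mem_opMod]
    apply H08.baer_suzuki_elt
    intro g
    obtain ⟨g, rfl⟩ := QuotientGroup.mk_surjective g
    have hb : (g : G) * a * (g : G)⁻¹ ∈ H := H.mul_mem (H.mul_mem g.2 haH) (H.inv_mem g.2)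
    have hle : closure ({a, (g : G) * a * (g : G)⁻¹} : Set G) ≤ H := by
      rw [closure_le]; rintro _ (rfl | rfl); exacts [haH, hb]
    have h1 := (quad_group hp hV (hHV haH) (hHV hb) hqa (quad_conj (hHV g.2) hqa)).resolve_right
      (fun h' => hs (sec_of_nat hle h'))
    rintro ⟨y, hy⟩
    have h2 : y ∈ (closure ({⟨a, haH⟩, g * ⟨a, haH⟩ * g⁻¹} : Set H)).map (QuotientGroup.mk' C) := by
      rwa [MonoidHom.map_closure, Set.image_pair]
    obtain ⟨x, hx, rfl⟩ := h2
    have h3 : (x : G) ∈ closure ({a, (g : G) * a * (g : G)⁻¹} : Set G) := by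
      have := mem_map_of_mem H.subtype hx
      rwa [MonoidHom.map_closure, Set.image_pair] at this
    obtain ⟨n, hn⟩ := h1 x h3
    exact ⟨n, Subtype.ext ((QuotientGroup.eq_one_iff _).2 hn)⟩
  by_cases h0 : V = ⊥
  · rw [h0, commutator_bot_left]
  obtain ⟨S⟩ := (inferInstance : Nonempty (Sylow p H))
  set R := (opMod p C).map H.subtype with hR
  have hRn : H ≤ normalizer (R : Set G) := by
    intro h hh
    rw [mem_normalizer_iff]
    intro x
    constructor
    · rintro ⟨y, hy, rfl⟩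
      exact ⟨_, (opMod_normal p C).conj_mem y hy ⟨h, hh⟩, rfl⟩
    · rintro ⟨y, hy, e⟩
      refine ⟨_, (opMod_normal p C).conj_mem y hy ⟨h, hh⟩⁻¹, ?_⟩
      have e' : (y : G) = h * x * h⁻¹ := e
      show h⁻¹ * (y : G) * h⁻¹⁻¹ = x
      rw [e']; group
  have hU : V ⊓ centralizer (R : Set G) ≠ ⊥ := by
    have h2 := BG.pg_fix_ne_bot (Fact.out : p.Prime) (S.isPGroup'.map H.subtype) (H17.elemAb_isPGroup hV)
      ((map_subtype_le _).trans hHV) h0
    intro h3
    apply h2
    rw [eq_bot_iff, ← h3]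
    rintro v ⟨hv, hc⟩
    refine ⟨hv, ?_⟩
    rintro _ ⟨y, hy, rfl⟩
    have h4 : C ⊔ (S : Subgroup H) ≤ (centralizer ({v} : Set G)).subgroupOf H := by
      refine sup_le (fun x hx => ?_) (fun x hx => ?_)
      · rintro _ rfl; exact hx _ hv
      · rintro _ rfl; exact (hc _ ⟨x, hx, rfl⟩).symm
    exact (h4 (opMod_le_sup_sylow C S hy) v rfl).symm
  have h5 := (hirr _ inf_le_left (H22.le_normalizer_inf hHV (hRn.trans (BG.norm_le_norm_cent R)))).resolve_left hU
  rw [commutator_eq_bot_iff_le_centralizer]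
  intro v hv a ha
  exact (h5.ge hv).2 a ⟨_, h1 a ha, rfl⟩

theorem not_sec_psl (hp : p ≠ 2) {F : Type} [Field F] [Fintype F] (hodd : Odd (Fintype.card F)) :
    ¬ Sec SL(2, ZMod p) PSL(2, F) := by
  have hD : H23.GW.DS PSL(2, F) := fun Q hQ => by
    refine (H04.cyclic_or_dihedral_of_quot (QuotientGroup.mk' _) (QuotientGroup.mk'_surjective _) ?_
      (H04.sl2_uniq (H09.two_ne_zero_of_odd_card hodd)) hQ).imp_right fun ⟨m, h⟩ => ⟨_, ?_, h⟩
    · rw [QuotientGroup.ker_mk', H09.card_center_SL, Fintype.card_fin, H04.gcd_two_sub hodd]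
    · exact Nat.le_self_pow (by omega) 2
  exact hD.not_sec Fact.out hp

theorem not_sec_ree (hp : p ≠ 2) (h : Lie.IsoRee G) : ¬ Sec SL(2, ZMod p) G := by
  obtain ⟨K, _, _, m, -, hK, ⟨e⟩⟩ := h
  obtain ⟨k, n, a', T, A, -, R, -⟩ := H11.Ree.exists_rg hK
  obtain ⟨S⟩ := (inferInstance : Nonempty (Sylow 2 G))
  refine not_sec_sl2_of_comm_sylow_two hp S (isMulCommutative_of_comm fun x hx y hy => ?_)
  have : Finite (Lie.twistedG2 K (3 ^ m)) := Finite.of_equiv _ e.toEquiv
  have key : ∀ z ∈ (S : Subgroup G), z * z = 1 := fun z hz => e.injective (by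
    rw [map_mul, map_one]; exact R.mul_self (S.isPGroup'.map e.toMonoidHom) ⟨z, hz, rfl⟩)
  have h1 := key _ (mul_mem hx hy)
  have h2 := key x hx
  have h3 := key y hy
  rw [← inv_eq_of_mul_eq_one_right h1, mul_inv_rev, inv_eq_of_mul_eq_one_right h2, inv_eq_of_mul_eq_one_right h3]

end H17.QP
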