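import Mathlib
import Cfsg.Prelude.Def_CaseTheorems
import Cfsg.Agent.S0215
import Cfsg.Agent.S0205
import Cfsg.Agent.H08.BaerSuzuki

/-! Rank three involution classes: the reduction (part C of S1617). -/

set_option autoImplicit false

namespace H17.R3

open Cfsg

theorem conj_mem {G : Type*} [Group G] {D : Set G} (hconj : ∃ d ∈ D, D = conjugatesOf d) {a : G} (ha : a ∈ D) (g : G) :
    g * a * g⁻¹ ∈ D := by
  obtain ⟨d, -, rfl⟩ := hconj
  exact IsConj.trans ha (isConj_iff.2 ⟨g, rfl⟩)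

theorem ex_conj {G : Type*} [Group G] {D : Set G} (hconj : ∃ d ∈ D, D = conjugatesOf d) {a b : G} (ha : a ∈ D)
    (hb : b ∈ D) : ∃ g : G, g * a * g⁻¹ = b := by
  obtain ⟨d, -, rfl⟩ := hconj
  exact isConj_iff.1 (IsConj.trans (IsConj.symm ha) hb)

theorem sq1 {G : Type*} [Group G] {D : Set G} (hinv : ∀ d ∈ D, orderOf d = 2) {a : G} (ha : a ∈ D) : a * a = 1 := by
  rw [← sq, ← hinv a ha, pow_orderOf_eq_one]

theorem comm_conj {G : Type*} [Group G] {x g w : G} (hg : Commute g x) :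
    x * (g * w * g⁻¹) = g * w * g⁻¹ * x ↔ x * w = w * x := by
  have e : g * x * g⁻¹ = x := by rw [hg.eq, mul_inv_cancel_right]
  have h1 : x * (g * w * g⁻¹) = g * (x * w) * g⁻¹ := by
    conv_lhs => rw [← e]
    group
  have h2 : g * w * g⁻¹ * x = g * (w * x) * g⁻¹ := by
    conv_lhs => rw [← e]
    group
  rw [h1, h2, mul_left_inj, mul_right_inj]

theorem pcore_bot {G : Type*} [Group G] [Finite G] (hsol : ∀ N : Subgroup G, N.Normal → Group.IsSolvable ↥N → N = ⊥) :
    pCore 2 G = ⊥ := by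
  haveI : Fact (Nat.Prime 2) := ⟨Nat.prime_two⟩
  refine hsol _ inferInstance ?_
  haveI := (H02.pCore_isPGroup 2 G).isNilpotent
  infer_instance

theorem not_central {G : Type*} [Group G] [Finite G] (hsol : ∀ N : Subgroup G, N.Normal → Group.IsSolvable ↥N → N = ⊥)
    {x : G} (hx : orderOf x = 2) (h : ∀ g : G, g * x = x * g) : False := by
  have hc : Subgroup.center G = ⊥ := hsol _ inferInstance (Group.isSolvable_of_comm fun a b => Subtype.ext (Subgroup.mem_center_iff.1 b.2 a))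
  have : x ∈ Subgroup.center G := Subgroup.mem_center_iff.2 h
  rw [hc, Subgroup.mem_bot] at this
  rw [this, orderOf_one] at hx
  omega

theorem red {G : Type*} [Group G] [Finite G] (hsol : ∀ N : Subgroup G, N.Normal → Group.IsSolvable ↥N → N = ⊥) {D : Set G} (hinv : ∀ d ∈ D, orderOf d = 2) (hconj : ∃ d ∈ D, D = conjugatesOf d) (hgen : Subgroup.closure D = ⊤) (hrank : ∀ x ∈ D, ∃ y ∈ D, ∃ z ∈ D, {w : G | ∃ g : G, Commute g x ∧ g * y * g⁻¹ = w} ≠ {w : G | ∃ g : G, Commute g x ∧ g * x * g⁻¹ = w} ∧ {w : G | ∃ g : G, Commute g x ∧ g * z * g⁻¹ = w} ≠ {w : G | ∃ g : G, Commute g x ∧ g * x * g⁻¹ = w} ∧ {w : G | ∃ g : G, Commute g x ∧ g * y * g⁻¹ = w} ≠ {w : G | ∃ g : G, Commute g x ∧ g * z * g⁻¹ = w} ∧ D = {w : G | ∃ g : G, Commute g x ∧ g * x * g⁻¹ = w} ∪ {w : G | ∃ g : G, Commute g x ∧ g * y * g⁻¹ = w} ∪ {w : G | ∃ g : G, Commute g x ∧ g * z * g⁻¹ = w}) :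
    (∃ p : ℕ, p.Prime ∧ p ≠ 2 ∧ ∀ a ∈ D, ∀ b ∈ D, a * b = b * a ∨ orderOf (a * b) = p) ∧
    (∃ a ∈ D, ∃ b ∈ D, a ≠ b ∧ a * b = b * a) ∧
    (∀ x ∈ D, ∀ y ∈ D, ∀ z ∈ D, y ≠ x → z ≠ x → (x * y = y * x ↔ x * z = z * x) →
      ∃ g : G, Commute g x ∧ g * y * g⁻¹ = z) := by
  haveI : Fact (Nat.Prime 2) := ⟨Nat.prime_two⟩
  have key : ∀ x ∈ D, ∃ y ∈ D, ∃ z ∈ D, y ≠ x ∧ x * y = y * x ∧ x * z ≠ z * x ∧
      ∀ w ∈ D, w ≠ x → (x * w = w * x ∧ ∃ g : G, Commute g x ∧ g * y * g⁻¹ = w) ∨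
        (x * w ≠ w * x ∧ ∃ g : G, Commute g x ∧ g * z * g⁻¹ = w) := by
    intro x hx
    obtain ⟨y, hy, z, hz, h1, h2, -, h4⟩ := hrank x hx
    have yx : y ≠ x := fun e => h1 (by rw [e])
    have zx : z ≠ x := fun e => h2 (by rw [e])
    have orb : ∀ w ∈ D, w ≠ x → (∃ g : G, Commute g x ∧ g * y * g⁻¹ = w) ∨ (∃ g : G, Commute g x ∧ g * z * g⁻¹ = w) := by
      intro w hw wx
      rw [h4] at hw
      rcases hw with (⟨g, hg, e⟩ | h) | h
      · exact absurd (by rw [← e, hg.eq, mul_inv_cancel_right]) wx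
      · exact Or.inl h
      · exact Or.inr h
    have c1 : x * y = y * x ∨ x * z = z * x := by
      by_contra hn
      push Not at hn
      have hiso : IsIsolatedInvolution x := by
        refine ⟨hinv x hx, fun g hg => by_contra fun ne => ?_⟩
        rcases orb _ (conj_mem hconj hx g) ne with ⟨k, hk, e⟩ | ⟨k, hk, e⟩
        · exact hn.1 ((comm_conj hk).1 (by rw [e]; exact hg.eq))
        · exact hn.2 ((comm_conj hk).1 (by rw [e]; exact hg.eq))
      have hO : oddCore G = ⊥ := hsol _ inferInstance (Cfsg.Agent.S0205.result (H08.odd_card_oddCore G))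
      refine not_central hsol (hinv x hx) fun g => ?_
      have := Cfsg.Agent.S0215.zstar hiso g
      rw [hO, Subgroup.mem_bot, mul_inv_eq_one, mul_inv_eq_iff_eq_mul] at this
      exact this.symm
    have c2 : x * y ≠ y * x ∨ x * z ≠ z * x := by
      by_contra hn
      push Not at hn
      refine not_central hsol (hinv x hx) fun g => ?_
      have : Subgroup.closure D ≤ Subgroup.centralizer {x} := by
        rw [Subgroup.closure_le]
        intro w hw
        rw [SetLike.mem_coe, Subgroup.mem_centralizer_singleton_iff]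
        by_cases wx : w = x
        · rw [wx]
        rcases orb w hw wx with ⟨k, hk, rfl⟩ | ⟨k, hk, rfl⟩
        · exact ((comm_conj hk).2 hn.1).symm
        · exact ((comm_conj hk).2 hn.2).symm
      rw [hgen] at this
      exact Subgroup.mem_centralizer_singleton_iff.1 (this (Subgroup.mem_top g))
    by_cases cy : x * y = y * x
    · have cz : x * z ≠ z * x := c2.resolve_left (not_not.2 cy)
      refine ⟨y, hy, z, hz, yx, cy, cz, fun w hw wx => ?_⟩
      rcases orb w hw wx with ⟨k, hk, rfl⟩ | ⟨k, hk, rfl⟩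
      · exact Or.inl ⟨(comm_conj hk).2 cy, k, hk, rfl⟩
      · exact Or.inr ⟨fun h => cz ((comm_conj hk).1 h), k, hk, rfl⟩
    · have cz : x * z = z * x := c1.resolve_left cy
      refine ⟨z, hz, y, hy, zx, cz, cy, fun w hw wx => ?_⟩
      rcases orb w hw wx with ⟨k, hk, rfl⟩ | ⟨k, hk, rfl⟩
      · exact Or.inr ⟨fun h => cy ((comm_conj hk).1 h), k, hk, rfl⟩
      · exact Or.inl ⟨(comm_conj hk).2 cz, k, hk, rfl⟩
  obtain ⟨x, hx, -⟩ := id hconj
  obtain ⟨y, hy, z, hz, yx, cy, cz, orb⟩ := key x hx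
  refine ⟨?_, ⟨y, hy, x, hx, yx, cy.symm⟩, ?_⟩
  · have hn : ∀ a ∈ D, ∀ b ∈ D, a * b = b * a ∨ orderOf (a * b) = orderOf (x * z) := by
      intro a ha b hb
      by_cases hab : a * b = b * a
      · exact Or.inl hab
      right
      obtain ⟨g, e⟩ := ex_conj hconj ha hx
      have nc : x * (g * b * g⁻¹) ≠ g * b * g⁻¹ * x := by
        intro h
        apply hab
        rw [← e] at h
        have h' : g * (a * b) * g⁻¹ = g * (b * a) * g⁻¹ := by
          calc g * (a * b) * g⁻¹ = g * a * g⁻¹ * (g * b * g⁻¹) := by group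
            _ = g * b * g⁻¹ * (g * a * g⁻¹) := h
            _ = _ := by group
        simpa using h'
      rcases orb _ (conj_mem hconj hb g) (fun h => nc (by rw [h])) with ⟨h, -⟩ | ⟨-, k, hk, e2⟩
      · exact absurd h nc
      have e3 : k * x * k⁻¹ = x := by rw [hk.eq, mul_inv_cancel_right]
      have : a * b = (g⁻¹ * k) * (x * z) * (g⁻¹ * k)⁻¹ := by
        calc a * b = g⁻¹ * ((g * a * g⁻¹) * (g * b * g⁻¹)) * g := by group
          _ = g⁻¹ * ((k * x * k⁻¹) * (k * z * k⁻¹)) * g := by rw [e, e3, e2]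
          _ = _ := by group
      rw [this]
      exact (MulAut.conj (g⁻¹ * k)).orderOf_eq (x * z)
    have c4 : ∀ a ∈ D, ∀ b ∈ D, a * b = b * a → (a * b) ^ 2 = 1 := by
      intro a ha b hb h
      rw [(show Commute a b from h).mul_pow, sq, sq, sq1 hinv ha, sq1 hinv hb, one_mul]
    set s := x * z with hs
    have xx := sq1 hinv hx
    have zz := sq1 hinv hz
    have xi : x⁻¹ = x := inv_eq_of_mul_eq_one_right xx
    have zi : z⁻¹ = z := inv_eq_of_mul_eq_one_right zz
    have xs : x * s⁻¹ * x⁻¹ = s := by rw [hs, mul_inv_rev, xi, zi, mul_assoc, mul_assoc, xx, mul_one]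
    have pw : ∀ k : ℕ, x * ((s ^ k)⁻¹ * x * (s ^ k)⁻¹⁻¹) = s ^ (2 * k) := by
      intro k
      have : x * (s ^ k)⁻¹ * x⁻¹ = s ^ k := by rw [← inv_pow, ← conj_pow, xs]
      rw [inv_inv, two_mul, pow_add]
      conv_rhs => lhs; rw [← this, xi]
      group
    have alt : ∀ k : ℕ, orderOf s ∣ 4 * k ∨ orderOf (s ^ (2 * k)) = orderOf s := by
      intro k
      have hm := conj_mem hconj hx (s ^ k)⁻¹
      rcases hn x hx _ hm with h | h
      · left
        have := c4 x hx _ hm h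
        rw [pw, ← pow_mul] at this
        rw [orderOf_dvd_iff_pow_eq_one, ← this]
        congr 1; ring
      · right; rwa [pw] at h
    have n0 : 0 < orderOf s := orderOf_pos s
    have n1 : orderOf s ≠ 1 := by
      intro h
      rw [orderOf_eq_one_iff, hs, mul_eq_one_iff_eq_inv, zi] at h
      exact cz (by rw [hs, h])
    have small : ∀ q k : ℕ, 1 < q → q ∣ orderOf s → q ∣ 2 * k → orderOf (s ^ (2 * k)) ≠ orderOf s := by
      rintro q k hq ⟨m, hm⟩ ⟨l, hl⟩ h
      have : orderOf s ∣ m := by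
        rw [← h, orderOf_dvd_iff_pow_eq_one, hl, ← pow_mul, show q * l * m = q * m * l by ring, ← hm, pow_mul,
          pow_orderOf_eq_one, one_pow]
      have m0 : 0 < m := Nat.pos_of_ne_zero (by rintro rfl; omega)
      have := Nat.le_of_dvd m0 this
      nlinarith
    have odd : ¬ 2 ∣ orderOf s := by
      intro h2
      have h4 : orderOf s ∣ 4 := by
        simpa using (alt 1).resolve_right (small 2 1 one_lt_two h2 (by simp))
      have : Subgroup.closure D ≤ pCore 2 G := by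
        refine H08.baer_suzuki_set' (fun d hd g => conj_mem hconj hd g) fun a ha b hb => ?_
        refine H08.isPGroup_two_closure_invols (sq1 hinv ha) (sq1 hinv hb) (k := 2) ?_
        rcases hn a ha b hb with h | h
        · rw [show 2 ^ 2 = 2 * 2 by norm_num, pow_mul, c4 a ha b hb h, one_pow]
        · rw [← orderOf_dvd_iff_pow_eq_one, h]; simpa using h4
      have hx1 := this (Subgroup.subset_closure hx)
      rw [pcore_bot hsol, Subgroup.mem_bot] at hx1
      have := hinv x hx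
      rw [hx1, orderOf_one] at this
      omega
    have hq := Nat.minFac_prime n1
    have hd : orderOf s ∣ 4 * (orderOf s).minFac :=
      (alt _).resolve_right (small _ _ hq.one_lt (Nat.minFac_dvd _) (Dvd.intro_left _ rfl))
    have cop : Nat.Coprime (orderOf s) 4 := by
      have : Nat.Coprime (orderOf s) 2 := ((Nat.Prime.coprime_iff_not_dvd Nat.prime_two).2 odd).symm
      simpa using Nat.Coprime.pow_right 2 this
    have hd2 := cop.dvd_of_dvd_mul_left hd
    have e := Nat.dvd_antisymm hd2 (Nat.minFac_dvd _)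
    refine ⟨orderOf s, e ▸ hq, fun h => odd (by rw [h]), hn⟩
  · intro x hx a ha b hb ax bx hab
    obtain ⟨y, -, z, -, -, -, -, orb⟩ := key x hx
    rcases orb a ha ax with ⟨h1, g, hg, rfl⟩ | ⟨h1, g, hg, rfl⟩ <;>
    rcases orb b hb bx with ⟨h2, k, hk, rfl⟩ | ⟨h2, k, hk, rfl⟩
    · exact ⟨k * g⁻¹, hk.mul_left hg.inv_left, by group⟩
    · exact absurd (hab.1 h1) h2
    · exact absurd (hab.2 h2) h1
    · exact ⟨k * g⁻¹, hk.mul_left hg.inv_left, by group⟩

end H17.R3
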