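import Cfsg.Agent.H11.Mult
import Cfsg.Agent.H11.Tori
import Cfsg.Agent.H11.Lang
import Cfsg.Agent.H11.PoinAll
import Cfsg.Agent.S1064
import Cfsg.Agent.BG.Api4

/-!
`H17.sr7`: the `5`- and `7`-subgroups of the Steinberg group of type `E₇` have an abelian subgroup of rank at most 7
and index at most the prime.
-/

set_option autoImplicit false
set_option synthInstance.maxSize 4096

namespace H17
open Cfsg.Lie H11 Cfsg StSys

universe u

theorem card_sgE7 (K : Type u) [Field K] [Fintype K] {q : ℕ} (hq : Fintype.card K = q) :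
    Nat.card (chevE7.SteinbergGroup K) = q ^ 63 * (q ^ 2 - 1) * (q ^ 6 - 1) * (q ^ 8 - 1) * (q ^ 10 - 1) * (q ^ 12 - 1) *
      (q ^ 14 - 1) * (q ^ 18 - 1) := by
  have h1 : ((sgSys chevE7 K).θG (sgSys_grp _ _)).ker = Subgroup.center _ := by rw [θG_ker, center_eq_ker (sgSys_grp _ _)]
  rw [← ((sgSys chevE7 K).θG (sgSys_grp _ _)).ker.card_mul_index, Subgroup.index_ker, h1, center_sgE7,
    MonoidHom.range_eq_top.2 (θG_surjective (sgSys_grp _ _)), Subgroup.card_top, Nat.card_units, Nat.card_eq_fintype_card, hq]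
  exact Cfsg.Agent.S1064.result hq

theorem inj_sgE7 {K : Type u} {Ω : Type*} [Field K] [Field Ω] (φ : K →+* Ω) :
    ∃ j : chevE7.SteinbergGroup K →* chevE7.SteinbergGroup Ω, Function.Injective j := by
  obtain ⟨j, hj⟩ := exists_sgMor (hMul_sg (D := chevE7)) φ
  refine ⟨j, (injective_iff_map_eq_one _).2 fun g hg => ?_⟩
  have h3 := hj.θ (sgSys_grp _ _) g
  rw [hg, map_one] at h3
  obtain ⟨c, rfl⟩ := (torS_range hMul_sg).ge (mem_H_of_θ_eq_one (S := sgSys chevE7 K) (g := g) (sgSys_grp chevE7 K ▸ trivial)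
    (Units.ext (Matrix.map_injective φ.injective ((congrArg Units.val h3).symm.trans (by simp)))))
  rw [hj.torS hMul_sg hMul_sg] at hg
  have h4 := torS_sgE7 (hg.trans (map_one _).symm)
  rw [show c = 1 from funext fun i => Units.map_injective φ.injective ((congrFun h4 i).trans (map_one _).symm), map_one]

theorem geo (t d : ℕ) : (t + 1) ^ d - 1 = (∑ i ∈ Finset.range d, (t + 1) ^ i) * t := by
  rw [← geom_sum_mul_add t d, Nat.add_sub_cancel]

theorem geo_mod {m t : ℕ} (h : t + 1 ≡ 1 [MOD m]) (d : ℕ) : ∑ i ∈ Finset.range d, (t + 1) ^ i ≡ d [MOD m] := by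
  induction d with
  | zero => rfl
  | succ d ih => rw [Finset.sum_range_succ]; exact ih.add (by simpa using h.pow d)

theorem not_dvd_index (K : Type u) [Field K] [Fintype K] {l : ℕ} (hl : l = 5 ∨ l = 7) (h : Fintype.card K ≡ 1 [MOD l ^ 2]) :
    ¬ l ∣ (sgSys chevE7 K).N.index := fun hd => by
  obtain ⟨t, ht⟩ : ∃ t, Fintype.card K = t + 1 := ⟨_, (Nat.sub_add_cancel Fintype.card_pos).symm⟩
  have t0 : 0 < t := by have := Fintype.one_lt_card (α := K); omega
  have h1 := (sgSys chevE7 K).N.card_mul_index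
  have h2 : Nat.card (sgSys chevE7 K).H = t ^ 7 := by
    rw [← torS_range hMul_sg, ← Nat.card_congr (MonoidHom.ofInjective torS_sgE7).toEquiv, Nat.card_fun, Nat.card_units,
      Nat.card_eq_fintype_card, ht, Nat.add_sub_cancel]
    simp; rfl
  have h3 : (sgSys chevE7 K).π.ker = (sgSys chevE7 K).H.subgroupOf (sgSys chevE7 K).N := Subgroup.ext fun g => π_eq_one_iff
  rw [← (sgSys chevE7 K).π.ker.card_mul_index, Subgroup.index_ker, MonoidHom.range_eq_top.2 π_surjective, Subgroup.card_top,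
    card_WeylE7, h3, Nat.card_congr (Subgroup.subgroupOfEquivOfLe H_le_N).toEquiv, h2, card_sgE7 K ht] at h1
  simp only [geo] at h1
  rw [ht] at h
  have h4 := (((((((h.pow 63).mul (geo_mod h 2)).mul (geo_mod h 6)).mul (geo_mod h 8)).mul (geo_mod h 10)).mul
    (geo_mod h 12)).mul (geo_mod h 14)).mul (geo_mod h 18)
  generalize ∑ i ∈ Finset.range 2, (t + 1) ^ i = a2 at *
  generalize ∑ i ∈ Finset.range 6, (t + 1) ^ i = a6 at *
  generalize ∑ i ∈ Finset.range 8, (t + 1) ^ i = a8 at *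
  generalize ∑ i ∈ Finset.range 10, (t + 1) ^ i = a10 at *
  generalize ∑ i ∈ Finset.range 12, (t + 1) ^ i = a12 at *
  generalize ∑ i ∈ Finset.range 14, (t + 1) ^ i = a14 at *
  generalize ∑ i ∈ Finset.range 18, (t + 1) ^ i = a18 at *
  generalize (t + 1) ^ 63 = a at *
  have h5 : 2903040 * (sgSys chevE7 K).N.index = a * a2 * a6 * a8 * a10 * a12 * a14 * a18 :=
    Nat.eq_of_mul_eq_mul_left (pow_pos t0 7) (by rw [← mul_assoc, h1]; ring)
  rw [← h5] at h4
  have h6 : l ^ 2 ∣ 2903040 * (sgSys chevE7 K).N.index := by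
    rw [pow_two]; exact Nat.mul_dvd_mul (by rcases hl with rfl | rfl <;> norm_num) hd
  have h7 := (h4.dvd_iff dvd_rfl).1 h6
  rcases hl with rfl | rfl <;> norm_num at h7

theorem sr7 (F : Type u) [Field F] [Fintype F] (l : ℕ) (hl : l = 5 ∨ l = 7) (h : (l : F) ≠ 0)
    (P : Subgroup (Cfsg.Lie.chevE7.SteinbergGroup F)) (hP : IsPGroup l P) :
    ∃ Q : Subgroup (Cfsg.Lie.chevE7.SteinbergGroup F), Q ≤ P ∧ Q.relIndex P ≤ l ∧ (∀ a ∈ Q, ∀ b ∈ Q, a * b = b * a) ∧
      Nat.card {x : Q // x ^ l = 1} ≤ l ^ 7 := by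
  have hlp : l.Prime := by rcases hl with rfl | rfl <;> norm_num
  obtain ⟨p, _⟩ := CharP.exists F
  obtain ⟨f, hp, hf⟩ := FiniteField.card F p
  have := Fact.mk hp
  have := Fact.mk hlp
  have : NeZero (l ^ 2).totient := ⟨(Nat.totient_pos.2 (pow_pos hlp.pos 2)).ne'⟩
  have : NeZero l := ⟨hlp.ne_zero⟩
  let K := FiniteField.Extension F p (l ^ 2).totient
  let _ : Fintype K := Fintype.ofFinite K
  have hK : Fintype.card K ≡ 1 [MOD l ^ 2] := by
    rw [← Nat.card_eq_fintype_card, FiniteField.natCard_extension, Nat.card_eq_fintype_card, hf]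
    refine Nat.ModEq.pow_totient (Nat.Coprime.pow _ _ ((Nat.coprime_primes hp hlp).2 ?_))
    rintro rfl
    exact h (CharP.cast_eq_zero F p)
  obtain ⟨j, hj⟩ := inj_sgE7 (algebraMap F K)
  have : Finite (chevE7.SteinbergGroup K) := Nat.finite_of_card_ne_zero (by
    have := Fintype.one_lt_card (α := K)
    have h1 (d : ℕ) : Fintype.card K ^ (d + 1) - 1 ≠ 0 := Nat.sub_ne_zero_of_lt (Nat.one_lt_pow (by omega) this)
    rw [card_sgE7 K rfl]
    simp only [ne_eq, mul_eq_zero, h1, or_false, pow_eq_zero_iff', not_and]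
    omega)
  have := Finite.of_injective j hj
  obtain ⟨T, hT⟩ := BG.sylow_exists hlp (sgSys chevE7 K).N
  obtain ⟨g, -, hg⟩ := BG.sylow_Jsub hlp (hT.trans_idx le_top (by rw [Subgroup.relIndex_top_right]; exact not_dvd_index K hl hK))
    (hP.map j) le_top
  let ψ := (MulAut.conj g).toMonoidHom.comp j
  have hψ : Function.Injective ψ := (MulAut.conj g).injective.comp hj
  have hN : ∀ x : P, ψ x ∈ (sgSys chevE7 K).N := fun x => hT.1 (hg (BG.conj_mem_cj g ⟨x, x.2, rfl⟩))
  have hH : ∀ x ∈ P ⊓ (sgSys chevE7 K).H.comap ψ, ∃ c, torS hMul_sg c = ψ x := fun x hx => (torS_range hMul_sg).ge hx.2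
  refine ⟨P ⊓ (sgSys chevE7 K).H.comap ψ, inf_le_left, ?_, fun a ha b hb => hψ ?_, ?_⟩
  · let φ : P →* Weyl chevE7 := (sgSys chevE7 K).π.comp ((ψ.comp P.subtype).codRestrict _ hN)
    have h1 : φ.ker = (P ⊓ (sgSys chevE7 K).H.comap ψ).subgroupOf P := Subgroup.ext fun x =>
      π_eq_one_iff.trans ⟨fun h => ⟨x.2, h⟩, fun h => h.2⟩
    have h2 := Subgroup.card_subgroup_dvd_card φ.range
    rw [← Subgroup.index_ker, h1, card_WeylE7] at h2
    obtain ⟨n, hn⟩ := BG.pg_card hlp hP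
    obtain ⟨m, -, e⟩ := (Nat.dvd_prime_pow hlp).1 (hn ▸ BG.relIndex_dvd_card (P ⊓ (sgSys chevE7 K).H.comap ψ) P)
    rw [e]
    refine (Nat.pow_le_pow_right hlp.pos (not_lt.1 fun h3 : 1 < m => ?_)).trans (pow_one l).le
    have h4 := (pow_dvd_pow l h3).trans (e.symm.dvd.trans h2)
    rcases hl with rfl | rfl <;> norm_num at h4
  · obtain ⟨c, hc⟩ := hH a ha
    obtain ⟨d, hd⟩ := hH b hb
    rw [map_mul, map_mul, ← hc, ← hd, ← map_mul, ← map_mul, mul_comm]
  · choose c hc using hH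
    let e : {x : ↥(P ⊓ (sgSys chevE7 K).H.comap ψ) // x ^ l = 1} → Node chevE7 → rootsOfUnity l K := fun x i =>
      ⟨c x.1 x.1.2 i, congrFun (torS_sgE7 (a₁ := c x.1 x.1.2 ^ l) (a₂ := 1) (by
        rw [map_pow, hc, ← map_pow, map_one, show (x.1 : chevE7.SteinbergGroup F) ^ l = 1 from congrArg Subtype.val x.2,
          map_one])) i⟩
    have he : Function.Injective e := fun x y hxy => Subtype.ext (Subtype.ext (hψ (by
      rw [← hc _ x.1.2, ← hc _ y.1.2, show c x.1 x.1.2 = c y.1 y.1.2 from funext fun i => congrArg Subtype.val (congrFun hxy i)])))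
    refine (Nat.card_le_card_of_injective e he).trans ?_
    rw [Nat.card_fun, show Nat.card (Node chevE7) = 7 by simp; rfl]
    exact Nat.pow_le_pow_left (card_rootsOfUnity K l) 7

end H17
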