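import Cfsg.Agent.H17.Sr7
import Cfsg.Agent.S1065

/-!
`H17.sr8`: the `3`-subgroups of the Steinberg group of type `E₈` have an abelian subgroup of rank at most 8
and index at most `3 ^ 5`.
-/

set_option autoImplicit false
set_option synthInstance.maxSize 4096

namespace H17
open Cfsg.Lie H11 Cfsg StSys

universe u

theorem torS_sgE8 {K : Type u} [Field K] : Function.Injective (torS (hMul_sg (D := chevE8) (K := K))) := torS_E8 _

theorem center_sgE8 (K : Type u) [Field K] [Finite K] : Subgroup.center (chevE8.SteinbergGroup K) = ⊥ := by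
  rw [← Subgroup.card_eq_one, card_center_sg torS_sgE8, kerE8]

theorem inj_θE8 (K : Type u) [Field K] [Finite K] : Function.Injective ((sgSys chevE8 K).θG (sgSys_grp _ _)) := by
  rw [← MonoidHom.ker_eq_bot_iff, θG_ker, ← center_eq_ker (sgSys_grp _ _), center_sgE8]

theorem card_sgE8 (K : Type u) [Field K] [Fintype K] {q : ℕ} (hq : Fintype.card K = q) :
    Nat.card (chevE8.SteinbergGroup K) = q ^ 120 * (q ^ 2 - 1) * (q ^ 8 - 1) * (q ^ 12 - 1) * (q ^ 14 - 1) * (q ^ 18 - 1) *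
      (q ^ 20 - 1) * (q ^ 24 - 1) * (q ^ 30 - 1) := by
  rw [Nat.card_eq_of_bijective _ ⟨inj_θE8 K, θG_surjective (sgSys_grp _ _)⟩]
  exact Cfsg.Agent.S1065.result hq

theorem inj_sgE8 {K : Type u} {Ω : Type*} [Field K] [Field Ω] (φ : K →+* Ω) :
    ∃ j : chevE8.SteinbergGroup K →* chevE8.SteinbergGroup Ω, Function.Injective j := by
  obtain ⟨j, hj⟩ := exists_sgMor (hMul_sg (D := chevE8)) φ
  refine ⟨j, (injective_iff_map_eq_one _).2 fun g hg => ?_⟩
  have h3 := hj.θ (sgSys_grp _ _) g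
  rw [hg, map_one] at h3
  obtain ⟨c, rfl⟩ := (torS_range hMul_sg).ge (mem_H_of_θ_eq_one (S := sgSys chevE8 K) (g := g) (sgSys_grp chevE8 K ▸ trivial)
    (Units.ext (Matrix.map_injective φ.injective ((congrArg Units.val h3).symm.trans (by simp)))))
  rw [hj.torS hMul_sg hMul_sg] at hg
  have h4 := torS_sgE8 (hg.trans (map_one _).symm)
  rw [show c = 1 from funext fun i => Units.map_injective φ.injective ((congrFun h4 i).trans (map_one _).symm), map_one]

theorem not_dvd_index8 (K : Type u) [Field K] [Fintype K] (h : Fintype.card K ≡ 1 [MOD 3 ^ 6]) :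
    ¬ 3 ∣ (sgSys chevE8 K).N.index := fun hd => by
  obtain ⟨t, ht⟩ : ∃ t, Fintype.card K = t + 1 := ⟨_, (Nat.sub_add_cancel Fintype.card_pos).symm⟩
  have t0 : 0 < t := by have := Fintype.one_lt_card (α := K); omega
  have h1 := (sgSys chevE8 K).N.card_mul_index
  have h2 : Nat.card (sgSys chevE8 K).H = t ^ 8 := by
    rw [← torS_range hMul_sg, ← Nat.card_congr (MonoidHom.ofInjective torS_sgE8).toEquiv, Nat.card_fun, Nat.card_units,
      Nat.card_eq_fintype_card, ht, Nat.add_sub_cancel]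
    simp; rfl
  have h3 : (sgSys chevE8 K).π.ker = (sgSys chevE8 K).H.subgroupOf (sgSys chevE8 K).N := Subgroup.ext fun g => π_eq_one_iff
  rw [← (sgSys chevE8 K).π.ker.card_mul_index, Subgroup.index_ker, MonoidHom.range_eq_top.2 π_surjective, Subgroup.card_top,
    card_WeylE8, h3, Nat.card_congr (Subgroup.subgroupOfEquivOfLe H_le_N).toEquiv, h2, card_sgE8 K ht] at h1
  simp only [geo] at h1
  rw [ht] at h
  have h4 := ((((((((h.pow 120).mul (geo_mod h 2)).mul (geo_mod h 8)).mul (geo_mod h 12)).mul (geo_mod h 14)).mul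
    (geo_mod h 18)).mul (geo_mod h 20)).mul (geo_mod h 24)).mul (geo_mod h 30)
  generalize ∑ i ∈ Finset.range 2, (t + 1) ^ i = a2 at *
  generalize ∑ i ∈ Finset.range 8, (t + 1) ^ i = a8 at *
  generalize ∑ i ∈ Finset.range 12, (t + 1) ^ i = a12 at *
  generalize ∑ i ∈ Finset.range 14, (t + 1) ^ i = a14 at *
  generalize ∑ i ∈ Finset.range 18, (t + 1) ^ i = a18 at *
  generalize ∑ i ∈ Finset.range 20, (t + 1) ^ i = a20 at *
  generalize ∑ i ∈ Finset.range 24, (t + 1) ^ i = a24 at *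
  generalize ∑ i ∈ Finset.range 30, (t + 1) ^ i = a30 at *
  generalize (t + 1) ^ 120 = a at *
  have h5 : 696729600 * (sgSys chevE8 K).N.index = a * a2 * a8 * a12 * a14 * a18 * a20 * a24 * a30 :=
    Nat.eq_of_mul_eq_mul_left (pow_pos t0 8) (by rw [← mul_assoc, h1]; ring)
  rw [← h5] at h4
  have h6 : 3 ^ 6 ∣ 696729600 * (sgSys chevE8 K).N.index := by
    rw [pow_succ]; exact Nat.mul_dvd_mul (by norm_num) hd
  have h7 := (h4.dvd_iff dvd_rfl).1 h6
  norm_num at h7

theorem sr8 (F : Type u) [Field F] [Fintype F] (h : (3 : F) ≠ 0)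
    (P : Subgroup (Cfsg.Lie.chevE8.SteinbergGroup F)) (hP : IsPGroup 3 P) :
    ∃ Q : Subgroup (Cfsg.Lie.chevE8.SteinbergGroup F), Q ≤ P ∧ Q.relIndex P ≤ 3 ^ 5 ∧ (∀ a ∈ Q, ∀ b ∈ Q, a * b = b * a) ∧
      Nat.card {x : Q // x ^ 3 = 1} ≤ 3 ^ 8 := by
  have hlp : Nat.Prime 3 := Nat.prime_three
  obtain ⟨p, _⟩ := CharP.exists F
  obtain ⟨f, hp, hf⟩ := FiniteField.card F p
  have := Fact.mk hp
  have := Fact.mk hlp
  obtain ⟨d, hd⟩ : ∃ d, d = (3 ^ 6).totient := ⟨_, rfl⟩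
  have : NeZero d := ⟨hd ▸ (Nat.totient_pos.2 (pow_pos hlp.pos 6)).ne'⟩
  let K := FiniteField.Extension F p d
  let _ : Fintype K := Fintype.ofFinite K
  have hK : Fintype.card K ≡ 1 [MOD 3 ^ 6] := by
    rw [← Nat.card_eq_fintype_card, FiniteField.natCard_extension, Nat.card_eq_fintype_card, hf, hd]
    refine Nat.ModEq.pow_totient (Nat.Coprime.pow _ _ ((Nat.coprime_primes hp hlp).2 ?_))
    rintro rfl
    exact h (CharP.cast_eq_zero F 3)
  obtain ⟨j, hj⟩ := inj_sgE8 (algebraMap F K)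
  have : Finite (chevE8.SteinbergGroup K) := Nat.finite_of_card_ne_zero (by
    have := Fintype.one_lt_card (α := K)
    have h1 (d : ℕ) : Fintype.card K ^ (d + 1) - 1 ≠ 0 := Nat.sub_ne_zero_of_lt (Nat.one_lt_pow (by omega) this)
    rw [card_sgE8 K rfl]
    simp only [ne_eq, mul_eq_zero, h1, or_false, pow_eq_zero_iff', not_and]
    omega)
  have := Finite.of_injective j hj
  obtain ⟨T, hT⟩ := BG.sylow_exists hlp (sgSys chevE8 K).N
  obtain ⟨g, -, hg⟩ := BG.sylow_Jsub hlp (hT.trans_idx le_top (by rw [Subgroup.relIndex_top_right]; exact not_dvd_index8 K hK))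
    (hP.map j) le_top
  let ψ := (MulAut.conj g).toMonoidHom.comp j
  have hψ : Function.Injective ψ := (MulAut.conj g).injective.comp hj
  have hN : ∀ x : P, ψ x ∈ (sgSys chevE8 K).N := fun x => hT.1 (hg (BG.conj_mem_cj g ⟨x, x.2, rfl⟩))
  have hH : ∀ x ∈ P ⊓ (sgSys chevE8 K).H.comap ψ, ∃ c, torS hMul_sg c = ψ x := fun x hx => (torS_range hMul_sg).ge hx.2
  refine ⟨P ⊓ (sgSys chevE8 K).H.comap ψ, inf_le_left, ?_, fun a ha b hb => hψ ?_, ?_⟩
  · let φ : P →* Weyl chevE8 := (sgSys chevE8 K).π.comp ((ψ.comp P.subtype).codRestrict _ hN)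
    have h1 : φ.ker = (P ⊓ (sgSys chevE8 K).H.comap ψ).subgroupOf P := Subgroup.ext fun x =>
      π_eq_one_iff.trans ⟨fun h => ⟨x.2, h⟩, fun h => h.2⟩
    have h2 := Subgroup.card_subgroup_dvd_card φ.range
    rw [← Subgroup.index_ker, h1, card_WeylE8] at h2
    obtain ⟨n, hn⟩ := BG.pg_card hlp hP
    obtain ⟨m, -, e⟩ := (Nat.dvd_prime_pow hlp).1 (hn ▸ BG.relIndex_dvd_card (P ⊓ (sgSys chevE8 K).H.comap ψ) P)
    rw [e]
    refine Nat.pow_le_pow_right hlp.pos (not_lt.1 fun h3 : 5 < m => ?_)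
    have h4 := (pow_dvd_pow 3 h3).trans (e.symm.dvd.trans h2)
    norm_num at h4
  · obtain ⟨c, hc⟩ := hH a ha
    obtain ⟨d, hd⟩ := hH b hb
    rw [map_mul, map_mul, ← hc, ← hd, ← map_mul, ← map_mul, mul_comm]
  · choose c hc using hH
    have hc3 : ∀ x : {x : ↥(P ⊓ (sgSys chevE8 K).H.comap ψ) // x ^ 3 = 1}, c x.1 x.1.2 ^ 3 = 1 := fun x =>
      torS_sgE8 (by
        rw [map_pow, hc, ← map_pow, map_one, show (x.1 : chevE8.SteinbergGroup F) ^ 3 = 1 from congrArg Subtype.val x.2,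
          map_one])
    let e : {x : ↥(P ⊓ (sgSys chevE8 K).H.comap ψ) // x ^ 3 = 1} → Node chevE8 → rootsOfUnity 3 K := fun x i =>
      ⟨c x.1 x.1.2 i, (mem_rootsOfUnity _ _).2 (by rw [← Pi.pow_apply, hc3, Pi.one_apply])⟩
    have he : Function.Injective e := fun x y hxy => Subtype.ext (Subtype.ext (hψ (by
      rw [← hc _ x.1.2, ← hc _ y.1.2, show c x.1 x.1.2 = c y.1 y.1.2 from funext fun i => congrArg Subtype.val (congrFun hxy i)])))
    refine (Nat.card_le_card_of_injective e he).trans ?_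
    rw [Nat.card_fun, show Nat.card (Node chevE8) = 8 by simp; rfl]
    exact Nat.pow_le_pow_left (card_rootsOfUnity K 3) 8

end H17
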