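import Cfsg.Agent.L.Jt0

/-! Odd subgroups centralising an element of order 3 and an element of `Q` (part R1 of S5563). -/

set_option autoImplicit false
open Cfsg BG Subgroup H01.XS Cfsg.Agent.H06.J Cfsg.Agent.H23.K L.Jt

namespace H17.TR1
universe u

theorem tf {M : Type u} [Group M] [Finite M] {d : M} (cen : ∀ g, g * d = d * g) (dc : d ∈ commutator M) (P : Subgroup M)
    (ab : ∀ a ∈ P, ∀ b ∈ P, a * b = b * a) : d ^ P.index = 1 := by
  have a1 := MonoidHom.transfer_eq_pow (Abelianization.of : P →* _) d fun k g _ => by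
    rw [mul_assoc, ← ((show Commute g d from cen g).pow_right k).eq, inv_mul_cancel_left]
  rw [MonoidHom.mem_ker.1 (Abelianization.commutator_subset_ker (MonoidHom.transfer (Abelianization.of : P →* _)) dc),
    eq_comm, ← MonoidHom.mem_ker, Abelianization.ker_of] at a1
  have a2 : d ^ P.index ∈ ⁅P, P⁆ := map_subtype_commutator P ▸ ⟨_, a1, rfl⟩
  rwa [commutator_eq_bot_iff_le_centralizer.2 fun a ha b hb => ab b hb a ha, mem_bot] at a2

theorem nine {M : Type u} [Group M] [Finite M] (cM : Nat.card M = 1330560) {d : M} (o : orderOf d = 3)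
    (cen : ∀ g, g * d = d * g) (dc : d ∈ commutator M) (H : Subgroup M) (dj : Disjoint H (zpowers d)) : Nat.card H ≠ 9 := fun c => by
  haveI : Fact (Nat.Prime 3) := ⟨by norm_num⟩
  have cm : ∀ (a : H) (b : zpowers d), Commute (H.subtype a) ((zpowers d).subtype b) := by
    rintro a ⟨_, i, rfl⟩; exact (show Commute (a : M) d from cen a).zpow_right i
  let ψ := H.subtype.noncommCoprod (zpowers d).subtype cm
  have inj : Function.Injective ψ := mul_injective_of_disjoint dj
  have cP : Nat.card ψ.range = 27 := by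
    rw [← Nat.card_congr (MonoidHom.ofInjective inj).toEquiv, Nat.card_prod, c, Nat.card_zpowers, o]
  letI := IsPGroup.commGroupOfCardEqPrimeSq (p := 3) c
  have := tf cen dc ψ.range (by
    rintro _ ⟨a, rfl⟩ _ ⟨b, rfl⟩
    rw [← map_mul, ← map_mul]; congr 1
    obtain ⟨a, _, i, rfl⟩ := a
    obtain ⟨b, _, j, rfl⟩ := b
    exact Prod.ext (mul_comm a b) (Subtype.ext (zpow_mul_comm d i j)))
  have i := ψ.range.card_mul_index
  have := orderOf_dvd_of_pow_eq_one this
  rw [o] at this
  rw [cP, cM] at i; omega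

theorem r1 : R1Stmt.{u} := by
  intro G _ _ z Q V _ _ _ Γ _ _ f π ν T d M β q s K Y B A δ c m1 ρ su ker x xz x3 r rQ r1 rz rx R hR od
  haveI : Fact (Nat.Prime 3) := ⟨by norm_num⟩
  have g := s.gm
  have v0 : ν r ≠ 0 := fun e => ((s.md.ker r rQ).1 e).elim r1 rz
  have two : ν r + ν r = 0 := by rw [← two_smul (ZMod 2), show (2 : ZMod 2) = 0 from rfl, zero_smul]
  have nd : T d (ν r) ≠ ν r := fun e => v0 (by simpa [e, two] using g.hf (ν r))
  have o : orderOf d = 3 := orderOf_eq_prime (by rw [← g.d3]; simp [pow_succ, mul_assoc]) fun e => nd (by rw [e, g.one])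
  have cm : ∀ (a : R) (b : zpowers x), Commute (R.subtype a) ((zpowers x).subtype b) := by
    rintro a ⟨_, i, rfl⟩; exact (show Commute (a : G) x from mem_centralizer_singleton_iff.1 (hR a.2).1.2).zpow_right i
  let ψ := R.subtype.noncommCoprod (zpowers x).subtype cm
  have le : ψ.range ≤ C_[z] ⊓ C_[x] ⊓ C_[r] := by
    rintro _ ⟨⟨a, b⟩, rfl⟩
    exact mul_mem (hR a.2) (zpowers_le.2 (mem_inf.2 ⟨mem_inf.2 ⟨xz, mem_centralizer_singleton_iff.2 rfl⟩,
      mem_centralizer_singleton_iff.2 (mem_centralizer_singleton_iff.1 rx).symm⟩) b.2)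
  have o1 : Odd (Nat.card ψ.range) := Odd.of_dvd_nat (by rw [Nat.card_prod, Nat.card_zpowers, x3]; exact od.mul (by decide))
    (card_range_dvd ψ)
  have lz : ψ.range ≤ C_[z] := le.trans (inf_le_left.trans inf_le_left)
  let F := f.comp (inclusion lz)
  have Fi : Function.Injective F := (injective_iff_map_eq_one _).2 fun a e => by
    have a1 := orderOf_dvd_natCard (⟨a, (s.ker a (lz a.2)).1 ((s.pf ⟨a, lz a.2⟩).symm.trans e)⟩ : Q)
    rw [s.card, ← orderOf_coe, show (8192 : ℕ) = 2 ^ 13 from rfl] at a1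
    exact orderOf_eq_one_iff.1 (Nat.eq_one_of_dvd_coprimes ((Nat.coprime_two_left.2 o1).pow_left 13) ((orderOf_coe a) ▸ a1)
      (orderOf_dvd_natCard a))
  have FM : ∀ a, F a ∈ M := fun a => by
    obtain ⟨k, hk⟩ := o1
    have : F a = (F a ^ (k + 1)) ^ 2 := by
      rw [← pow_mul, show (k + 1) * 2 = 2 * k + 1 + 1 by ring, pow_succ, ← hk, ← map_pow, pow_card_eq_one', map_one, one_mul]
    rw [this]; exact sq_mem_of_index_two g.Mi _
  have fx : ∀ a, T (F a) (ν r) = ν r := fun a => by
    rw [show F a = π a from s.pf _, s.act a (lz a.2) r rQ, mem_centralizer_singleton_iff.1 (le a.2).2, mul_inv_cancel_right]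
  have dz : ∀ a, F a ∈ zpowers d → a = 1 := fun a h => Fi (by
    rw [map_one]
    by_contra n
    have : zpowers (F a) = zpowers d := eq_of_le_of_card_ge (zpowers_le.2 h) (by
      have := orderOf_dvd_of_mem_zpowers h
      rw [o] at this
      rw [Nat.card_zpowers, Nat.card_zpowers, o, ((Nat.dvd_prime Nat.prime_three).1 this).resolve_left (mt orderOf_eq_one_iff.1 n)])
    obtain ⟨i, e⟩ := (mem_powers_iff_mem_zpowers.2 (this.ge (mem_zpowers d)) :)
    exact nd (by rw [← ((map_pow F a i).trans e : F (a ^ i) = d)]; exact fx _))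
  let F' : ψ.range →* M := F.codRestrict M FM
  have θi : Function.Injective (ρ.comp F') := (injective_iff_map_eq_one _).2 fun a e => dz a ((ker _).1 e)
  have xm : x ∈ ψ.range := ⟨(1, ⟨x, mem_zpowers x⟩), one_mul x⟩
  have c9 := m1 (ρ.comp F' ⟨x, xm⟩) (by rw [orderOf_injective _ θi, ← orderOf_coe, x3]) (ρ.comp F').range (by
    rintro _ ⟨a, rfl⟩
    rw [mem_centralizer_singleton_iff, ← map_mul, ← map_mul]; congr 1
    exact Subtype.ext (mem_centralizer_singleton_iff.1 (le a.2).1.2)) (by
      rwa [← Nat.card_congr (MonoidHom.ofInjective θi).toEquiv])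
  rw [← Nat.card_congr (MonoidHom.ofInjective θi).toEquiv] at c9
  have n9 := nine (M := M) (by have := M.card_mul_index; rw [g.Mi, g.cΓ] at this; omega) (d := ⟨d, g.dM⟩)
    (by rw [← orderOf_coe, o]) (fun a => Subtype.ext (g.Md a a.2)) (by
      have := commutator_mono c.hk.KM c.hk.KM c.dK
      rw [← map_subtype_commutator] at this
      obtain ⟨y, h, e⟩ := this
      exact (show y = ⟨d, g.dM⟩ from Subtype.ext e) ▸ h) F'.range (disjoint_def.2 (by
      rintro _ ⟨a, rfl⟩ ⟨i, e⟩
      rw [dz a ⟨i, congrArg Subtype.val e⟩, map_one]))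
  rw [← Nat.card_congr (MonoidHom.ofInjective (Function.Injective.of_comp θi : Function.Injective F')).toEquiv] at n9
  have := Nat.le_of_dvd (by norm_num) c9
  have e : zpowers x = ψ.range := eq_of_le_of_card_ge (zpowers_le.2 xm) (by
    rw [Nat.card_zpowers, x3]
    generalize Nat.card ψ.range = n at *
    interval_cases n <;> omega)
  exact fun y hy => e.ge ⟨(⟨y, hy⟩, 1), mul_one y⟩

end H17.TR1
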