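import Cfsg.Agent.BG.Api3
import Cfsg.Agent.H17.Chief
import Cfsg.Agent.H26.R1

/-!
# Elementary abelian TI-subgroups that are maximal abelian normal subgroups of their normalizer

`H17.TV.Hy 𝓥` : the family of conjugates; `qq X = O₂(N(X))`, `pp X = C_{qq X}(X)`. For a member `Y ≠ X` of `qq X` the group `pp X`
is special with centre `X` and `X Y` is partitioned by `X` and the `pp X`-conjugates of `Y`.
-/

set_option autoImplicit false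
set_option linter.unusedSectionVars false
open Cfsg BG Subgroup
open scoped commutatorElement

namespace H17.TV
universe u
variable {G : Type u} [Group G] [Finite G] {𝓥 : Set (Subgroup G)} {A T X Y Z : Subgroup G} {a p u v w x y z : G}

/-- `O₂(N(X))` -/
def qq (X : Subgroup G) : Subgroup G := pCoreOf 2 N_(X)

/-- `C_Q(X)` -/
def pp (X : Subgroup G) : Subgroup G := qq X ⊓ C_(X)

theorem qq_cj (g : G) (X : Subgroup G) : cj g (qq X) = qq (cj g X) := by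
  rw [qq, qq, ← cj_norm]; exact H26.cj_pCoreOf g _

theorem pp_cj (g : G) (X : Subgroup G) : cj g (pp X) = pp (cj g X) := by rw [pp, pp, cj_inf, qq_cj, cj_cent]

theorem qq_le (X : Subgroup G) : qq X ≤ N_(X) := H26.pCoreOf_le _

theorem pp_le (X : Subgroup G) : pp X ≤ N_(X) := inf_le_left.trans (qq_le X)

theorem qq_pg (X : Subgroup G) : IsPGroup 2 (qq X) := H26.isPGroup_pCoreOf _

theorem pp_pg (X : Subgroup G) : IsPGroup 2 (pp X) := (qq_pg X).to_le inf_le_left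

theorem nqq (X : Subgroup G) : N_(X) ≤ N_(qq X) := H26.le_normalizer_pCoreOf _

theorem npp (X : Subgroup G) : N_(X) ≤ N_(pp X) := norm_inf (nqq X) (norm_le_norm_cent X)

/-- the family of conjugates -/
structure Hy (𝓥 : Set (Subgroup G)) : Prop where
  cj : ∀ {X : Subgroup G}, X ∈ 𝓥 → ∀ g : G, cj g X ∈ 𝓥
  sq : ∀ {X : Subgroup G} {x : G}, X ∈ 𝓥 → x ∈ X → x * x = 1
  ti : ∀ {X Y : Subgroup G} {x : G}, X ∈ 𝓥 → Y ∈ 𝓥 → x ∈ X → x ∈ Y → x ≠ 1 → X = Y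
  card : ∀ {X Y : Subgroup G}, X ∈ 𝓥 → Y ∈ 𝓥 → Nat.card X = Nat.card Y
  mx : ∀ {X A : Subgroup G}, X ∈ 𝓥 → X ≤ A → A ≤ N_(X) → A ≤ C_(A) → N_(X) ≤ N_(A) → A ≤ X
  cp : ∀ {X : Subgroup G}, X ∈ 𝓥 → N_(X) ⊓ C_(qq X) ≤ qq X

theorem comm_iff : ⁅x, y⁆ = 1 ↔ x * y = y * x := commutatorElement_eq_one_iff_mul_comm

theorem comm_mem_left (h : y ∈ N_(A)) (hx : x ∈ A) : ⁅x, y⁆ ∈ A := by
  have := A.mul_mem hx (conj_mem_of_norm h (inv_mem hx))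
  simpa only [commutatorElement_def, mul_assoc] using this

theorem comm_mem_right (h : x ∈ N_(A)) (hy : y ∈ A) : ⁅x, y⁆ ∈ A := mul_mem (conj_mem_of_norm h hy) (inv_mem hy)

namespace Hy
variable (h : Hy 𝓥)
include h

theorem inv (hX : X ∈ 𝓥) (hx : x ∈ X) : x⁻¹ = x := inv_eq_of_mul_eq_one_right (h.sq hX hx)

theorem comm (hX : X ∈ 𝓥) (hx : x ∈ X) (hy : y ∈ X) : x * y = y * x := by
  rw [← h.inv hX (mul_mem hx hy), mul_inv_rev, h.inv hX hx, h.inv hX hy]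

theorem ab (hX : X ∈ 𝓥) : X ≤ C_(X) := le_cent_iff.2 fun _ a _ b => h.comm hX a b

theorem pg (hX : X ∈ 𝓥) : IsPGroup 2 X := pg_of_pow fun x hx => by rw [pow_two, h.sq hX hx]

theorem cent (hX : X ∈ 𝓥) (hx : x ∈ X) (h1 : x ≠ 1) (hy : y * x = x * y) : y ∈ N_(X) :=
  cj_eq_self_iff.1 (h.ti (h.cj hX y) hX (mem_cj'.2 ⟨x, hx, by rw [hy, mul_inv_cancel_right]⟩) hx h1)

theorem one (hX : X ∈ 𝓥) (hY : Y ∈ 𝓥) (hn : X ≠ Y) (h1 : x ∈ X) (h2 : x ∈ Y) : x = 1 :=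
  by_contra fun e => hn (h.ti hX hY h1 h2 e)

theorem ex (hX : X ∈ 𝓥) (hY : Y ∈ 𝓥) (hn : X ≠ Y) : ∃ x ∈ X, x ≠ 1 := exists_mem_ne_one fun e => hn (by
  have := h.card hX hY
  rw [e, card_bot, eq_comm, Subgroup.card_eq_one] at this
  rw [e, this])

theorem inj (hY : Y ∈ 𝓥) (hx : x ∉ N_(Y)) (hA : ∀ y ∈ Y, ⁅x, y⁆ ∈ A) :
    Function.Injective fun y : Y => (⟨⁅x, (y : G)⁆, hA y y.2⟩ : A) := fun a b e => by
  by_contra hn
  refine hx (h.cent hY (mul_mem (inv_mem b.2) a.2) (fun e' => hn (Subtype.ext (inv_mul_eq_one.1 e').symm)) ?_)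
  have e1 : ⁅x, (a : G)⁆ = ⁅x, (b : G)⁆ := congrArg Subtype.val e
  calc x * ((b : G)⁻¹ * a) = (b : G)⁻¹ * (⁅x, (b : G)⁆⁻¹ * x) * a := by rw [commutatorElement_def]; group
    _ = _ := by rw [← e1, commutatorElement_def]; group

theorem surj (hX : X ∈ 𝓥) (hY : Y ∈ 𝓥) (hx : x ∉ N_(Y)) (hA : ∀ y ∈ Y, ⁅x, y⁆ ∈ X) (hv : v ∈ X) : ∃ y ∈ Y, ⁅x, y⁆ = v := by
  obtain ⟨y, hy⟩ := ((h.inj hY hx hA).bijective_of_nat_card_le (h.card hX hY).le).2 ⟨v, hv⟩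
  exact ⟨y, y.2, congrArg Subtype.val hy⟩

theorem stepA (hX : X ∈ 𝓥) (hY : Y ∈ 𝓥) (hn : X ≠ Y) (hN : Y ≤ N_(X)) : Y ≤ C_(X) := by
  have h1 : X ≤ N_(Y) := fun x hx => by
    by_contra e
    have h2 : ∀ y ∈ Y, ⁅x, y⁆ ∈ X ⊓ N_(Y) := fun y hy => by
      by_cases y1 : y = 1
      · simp [y1]
      refine ⟨comm_mem_left (hN hy) hx, h.cent hY hy y1 ?_⟩
      have e1 := h.comm hX hx (conj_mem_of_norm (hN hy) (inv_mem hx))
      rw [commutatorElement_def, h.inv hY hy, h.inv hX hx] at *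
      calc _ = x * y * x * (y * y) := by group
        _ = y * y * (x * y * x) := by rw [h.sq hY hy]; group
        _ = y * (y * x * y * x) := by group
        _ = _ := by rw [← e1]; group
    have h3 := Nat.card_le_card_of_injective _ (h.inj hY e h2)
    exact e ((eq_of_le_of_card_ge (inf_le_left : X ⊓ N_(Y) ≤ X) ((h.card hX hY).le.trans h3)).ge hx).2
  exact le_cent_iff.2 fun y hy x hx => comm_iff.1
    (h.one hX hY hn (comm_mem_right (hN hy) hx) (comm_mem_left (h1 hx) hy))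

section
variable (hX : X ∈ 𝓥)
include hX

theorem le_pp : X ≤ pp X := le_inf (H26.le_pCoreOf (le_norm X) le_rfl (h.pg hX)) (h.ab hX)

theorem zpp : pp X ⊓ C_(pp X) ≤ X := h.mx hX (le_inf (h.le_pp hX) (cent_symm inf_le_right)) (inf_le_left.trans (pp_le X))
  (abelian_iff.1 (abelian_center _)) (norm_inf (npp X) (norm_cent (npp X)))

theorem der : ⁅pp X, pp X⁆ ≤ X := by
  obtain ⟨E, hE⟩ : ∃ E, E = pp X ⊓ H26.commKer (pp X) X := ⟨_, rfl⟩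
  have e1 : ⁅E, pp X⁆ ≤ X := hE ▸ (H26.le_commKer_iff.1 inf_le_right).2
  have e2 : N_(X) ≤ N_(E) := hE ▸ norm_inf (npp X) (H26.le_normalizer_commKer (npp X) le_rfl)
  have e3 : ∀ y ∈ pp X, (∀ q ∈ pp X, ⁅y, q⁆ ∈ X) → y ∈ E := fun y a b =>
    hE ▸ ⟨a, pp_le X a, b⟩
  have e4 : X ≤ E := fun x hx => e3 x (h.le_pp hX hx) fun q hq => comm_mem_left (pp_le X hq) hx
  have e5 : pp X ⊓ C_(E) ≤ X := by
    by_contra e
    obtain ⟨y, y1, y2, y3⟩ := exists_comm_mem ((pp_pg X).to_le inf_le_left) (pp_pg X)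
      ((pp_le X).trans (norm_inf (npp X) (norm_cent e2))) e
    exact y2 (h.mx (A := E ⊓ C_(E)) hX (le_inf e4 (cent_symm (hE.le.trans (inf_le_left.trans inf_le_right))))
      (inf_le_left.trans (hE.le.trans (inf_le_left.trans (pp_le X)))) (abelian_iff.1 (abelian_center _))
      (norm_inf e2 (norm_cent e2)) ⟨e3 y y1.1 y3, y1.2⟩)
  have e6 : ⁅⁅E, pp X⁆, pp X⁆ = ⊥ := comm_eq_bot.2 (e1.trans (cent_symm inf_le_right))
  exact (le_inf (der_le _) (comm_eq_bot.1 (three_subgroup (by rwa [comm_comm (pp X) E]) e6))).trans e5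

theorem cm (hx : x ∈ pp X) (hy : y ∈ pp X) : ⁅x, y⁆ ∈ X := h.der hX (commutator_mem_commutator hx hy)

omit hX in
theorem sq_comm (hX : X ∈ 𝓥) (hx : x ∈ C_(X)) (hy : ⁅x, y⁆ ∈ X) : x * x * y = y * (x * x) := by
  have e1 := mem_cent.1 hx _ hy
  have e2 := h.sq hX hy
  calc x * x * y = x * (⁅x, y⁆ * y * x) := by rw [commutatorElement_def]; group
    _ = ⁅x, y⁆ * (x * y) * x := by rw [← mul_assoc, ← mul_assoc, ← e1]; group
    _ = ⁅x, y⁆ * ⁅x, y⁆ * y * x * x := by rw [commutatorElement_def]; group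
    _ = _ := by rw [e2]; group

theorem sqp (hx : x ∈ pp X) : x * x ∈ X :=
  h.zpp hX ⟨mul_mem hx hx, mem_cent.2 fun _ hy => (h.sq_comm hX hx.2 (h.cm hX hx hy)).symm⟩

theorem cpp : C_(pp X) ≤ X := by
  have e1 : C_(pp X) ≤ C_(X) := cent_anti (h.le_pp hX)
  have e2 : C_(pp X) ≤ N_(X) := e1.trans (cent_le_norm X)
  have e3 : ∀ c ∈ C_(pp X), c ∈ qq X → c ∈ X := fun c a b => h.zpp hX ⟨⟨b, e1 a⟩, a⟩
  refine fun c hc => e3 c hc (H26.le_pCoreOf e2 (norm_cent (npp X)) (fun ⟨c, hc⟩ => ?_) hc)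
  have e4 : c * c ∈ qq X := h.cp hX ⟨e2 (mul_mem hc hc), mem_cent.2 fun t ht => (h.sq_comm hX (e1 hc) (e3 _
    (comm_mem_left (norm_cent (npp X) (qq_le X ht)) hc) (comm_mem_right (nqq X (e2 hc)) ht))).symm⟩
  exact ⟨2, Subtype.ext (by
    have := h.sq hX (e3 _ (mul_mem hc hc) e4)
    simpa [pow_succ, mul_assoc] using this)⟩

variable (hY : Y ∈ 𝓥) (hn : X ≠ Y) (hYP : Y ≤ pp X)
include hY hn hYP

theorem b1 (hp : p ∈ pp X) (hN : p ∈ N_(Y)) : p ∈ C_(Y) := mem_cent.2 fun y hy => comm_iff.1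
  (h.one hX hY hn (h.cm hX (hYP hy) hp) (comm_mem_left hN hy))

theorem b3 : ∃ Z ∈ 𝓥, Z ≤ pp X ∧ ¬ Z ≤ C_(Y) := by
  by_contra! e
  have e1 : ∀ m ∈ N_(X), BG.cj m Y ≤ pp X := fun m hm => cj_le_of_mem_norm hYP (npp X hm)
  have e2 := h.mx (A := X ⊔ ⨆ m : N_(X), BG.cj m Y) hX le_sup_left
    (sup_le (le_norm X) (iSup_le fun m => (e1 m m.2).trans (pp_le X))) ?_ ?_
  · refine hn (eq_of_le_of_card_ge ?_ (h.card hX hY).le).symm
    exact le_trans (le_sup_of_le_right (le_iSup_of_le 1 (by simp [cj_one]))) e2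
  · refine le_cent_sup (sup_le (h.ab hX) (iSup_le fun m => (e1 m m.2).trans inf_le_right)) (sup_le
      (cent_symm (iSup_le fun m => (e1 m m.2).trans inf_le_right)) (iSup_le fun m => cent_symm (iSup_le fun k => ?_)))
    rw [← cj_cent, le_cj_iff, cj_cj]
    exact e _ (h.cj hY _) (e1 _ (mul_mem (inv_mem m.2) k.2))
  · refine norm_sup le_rfl (le_norm_of_cj_le fun k hk => ?_)
    rw [cj_le_iff]
    exact iSup_le fun m => by rw [← cj_le_iff, cj_cj]; exact le_iSup_of_le ⟨k * m, mul_mem hk m.2⟩ le_rfl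

theorem mem_W : w ∈ X ⊔ Y ↔ ∃ v ∈ X, ∃ y ∈ Y, v * y = w := mem_sup_norm (hYP.trans (pp_le X))

theorem W_le : X ⊔ Y ≤ pp X := sup_le (h.le_pp hX) hYP

theorem nW : pp X ≤ N_(X ⊔ Y) :=
  le_norm_of_comm_le ((comm_mono (h.W_le hX hY hn hYP) le_rfl).trans ((h.der hX).trans le_sup_left))

section
variable (hZ : Z ∈ 𝓥) (hZP : Z ≤ pp X) (hZY : ¬ Z ≤ C_(Y))
include hZ hZP hZY

theorem neZ : X ≠ Z := fun e => hZY (e ▸ cent_symm (hYP.trans inf_le_right))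

theorem nz (hz : z ∈ Z) (h1 : z ≠ 1) : z ∉ N_(Y) := fun e => hZY (cent_symm fun y hy =>
  h.b1 hX hZ (h.neZ hX hY hn hYP hZ hZP hZY) hZP (hYP hy) (h.cent hZ hz h1 (mem_cent.1 (h.b1 hX hY hn hYP (hZP hz) e) y hy)))

theorem b4 (hy : y ∈ Y) (h1 : y ≠ 1) (hv : v ∈ X) : ∃ z ∈ Z, ⁅y, z⁆ = v :=
  h.surj hX hZ (h.nz hX hZ (h.neZ hX hY hn hYP hZ hZP hZY) hZP hY hYP (fun e => hZY (cent_symm e)) hy h1)
    (fun _ hz => h.cm hX (hYP hy) (hZP hz)) hv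

theorem dec (hp : p ∈ pp X) : ∃ z ∈ Z, p * z ∈ C_(Y) := by
  obtain ⟨y, hy, y1⟩ := h.ex hY hX hn.symm
  obtain ⟨z, hz, e⟩ := h.b4 hX hY hn hYP hZ hZP hZY hy y1 (h.cm hX (hYP hy) (inv_mem hp))
  refine ⟨z, hz, h.b1 hX hY hn hYP (mul_mem hp (hZP hz)) (h.cent hY hy y1 ?_)⟩
  calc p * z * y = p * ⁅y, z⁆⁻¹ * y * z := by rw [commutatorElement_def]; group
    _ = _ := by rw [e, commutatorElement_def]; group

end

theorem b5 (hu : u ∈ pp X) (hc : u ∈ C_(pp X ⊓ C_(Y))) : u ∈ X ⊔ Y := by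
  obtain ⟨Z, hZ, hZP, hZY⟩ := h.b3 hX hY hn hYP
  obtain ⟨y, hy, e⟩ := h.dec hX hZ (h.neZ hX hY hn hYP hZ hZP hZY) hZP hY hYP (fun e => hZY (cent_symm e)) hu
  have e1 : u * y ∈ X := h.cpp hX (mem_cent.2 fun p hp => by
    obtain ⟨z, hz, e2⟩ := h.dec hX hY hn hYP hZ hZP hZY hp
    have e3 := mem_cent.1 (mul_mem hc (cent_symm inf_le_right hy)) _ ⟨mul_mem hp (hZP hz), e2⟩
    rw [mul_assoc, mem_cent.1 e z hz, ← mul_assoc, ← mul_assoc (u * y)] at e3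
    exact mul_right_cancel e3)
  simpa using mul_mem (mem_sup_left e1) (mem_sup_right (inv_mem hy))

theorem b6 (hw : w ∈ X ⊔ Y) (h1 : w ∉ X) : ∃ p ∈ pp X, ∃ y ∈ Y, w = p * y * p⁻¹ := by
  obtain ⟨Z, hZ, hZP, hZY⟩ := h.b3 hX hY hn hYP
  obtain ⟨v, hv, y, hy, rfl⟩ := (h.mem_W hX hY hn hYP).1 hw
  obtain ⟨z, hz, e⟩ := h.b4 hX hY hn hYP hZ hZP hZY hy (fun e => h1 (by simpa [e] using hv)) (inv_mem hv)
  exact ⟨z, hZP hz, y, hy, by rw [← inv_inv v, ← e, commutatorElement_def]; group⟩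

theorem pt (hT : T ∈ 𝓥) (h1 : w ∈ T) (hw : w ∈ X ⊔ Y) (h2 : w ≠ 1) : T = X ∨ ∃ p ∈ pp X, T = BG.cj p Y := by
  by_cases e : w ∈ X
  · exact Or.inl (h.ti hT hX h1 e h2)
  obtain ⟨p, hp, y, hy, rfl⟩ := h.b6 hX hY hn hYP hw e
  exact Or.inr ⟨p, hp, h.ti hT (h.cj hY p) h1 (conj_mem_cj p hy) h2⟩

theorem cjW (hp : p ∈ pp X) : X ⊔ BG.cj p Y = X ⊔ Y := by
  rw [← cj_of_mem_norm (h.nW hX hY hn hYP hp), cj_sup, cj_of_mem_norm (pp_le X hp)]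

theorem pt_le (hT : T ∈ 𝓥) (h1 : w ∈ T) (hw : w ∈ X ⊔ Y) (h2 : w ≠ 1) : T ≤ X ⊔ Y := by
  rcases h.pt hX hY hn hYP hT h1 hw h2 with rfl | ⟨p, hp, rfl⟩
  · exact le_sup_left
  · exact h.cjW hX hY hn hYP hp ▸ le_sup_right

end
end Hy
end H17.TV
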