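import Cfsg.Agent.H17.TV1

/-!
# Elementary abelian TI-subgroups, II

`H17.TV.Hy.sym` : the relation `Y ≤ O₂(N(X))` is symmetric; `Hy.qq_eq` : `O₂(N(X))` centralizes `X`; `Hy.wf` : the two groups act on
`X Y` as `SL₂`.
-/

set_option autoImplicit false
set_option linter.unusedSectionVars false
open Cfsg BG Subgroup
open scoped commutatorElement

namespace H17.TV
universe u
variable {G : Type u} [Group G] [Finite G] {𝓥 : Set (Subgroup G)} {A T X Y Z : Subgroup G} {a g p u v w x y z : G}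

namespace Hy
variable (h : Hy 𝓥) (hX : X ∈ 𝓥) (hY : Y ∈ 𝓥) (hn : X ≠ Y) (hYP : Y ≤ pp X)
include h hX hY hn hYP

theorem XC : X ≤ C_(Y) := cent_symm (hYP.trans inf_le_right)

theorem swap (hy : y ∈ N_(Y)) (h1 : w ∈ BG.cj y X) (h2 : w ∈ X ⊔ Y) (h3 : w ≠ 1) (h4 : y ∉ N_(X)) : X ≤ qq Y := by
  obtain ⟨p, hp, e⟩ := (h.pt hX hY hn hYP (h.cj hX y) h1 h2 h3).resolve_left fun e => h4 (cj_eq_self_iff.1 e)
  have e1 : y ∈ N_(X ⊔ Y) := mem_norm_of_cj_le (by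
    rw [cj_sup, cj_of_mem_norm hy]; exact sup_le (h.pt_le hX hY hn hYP (h.cj hX y) h1 h2 h3) le_sup_right)
  have e2 : X ≤ BG.cj y (qq X) := le_sup_left.trans ((cj_of_mem_norm e1).ge.trans
    (cj_mono y ((h.W_le hX hY hn hYP).trans inf_le_left)))
  rwa [qq_cj, e, ← qq_cj, le_cj_iff, cj_of_mem_norm (inv_mem (pp_le X hp))] at e2

theorem small (hZ : Z ∈ 𝓥) (hZP : Z ≤ pp X) (hZY : ¬ Z ≤ C_(Y)) (hs : pp X ⊓ C_(Y) ≤ X ⊔ Y) :
    pp X ⊓ C_(Z) ≤ X ⊔ Z ∧ pp X ≤ X ⊔ Y ⊔ Z := by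
  refine ⟨fun u hu => ?_, fun u hu => ?_⟩
  · obtain ⟨z, hz, e⟩ := h.dec hX hY hn hYP hZ hZP hZY hu.1
    obtain ⟨v, hv, y, hy, e'⟩ := (h.mem_W hX hY hn hYP).1 (hs ⟨mul_mem hu.1 (hZP hz), e⟩)
    have e2 : y = 1 := by_contra fun y1 => h.nz hX hZ (h.neZ hX hY hn hYP hZ hZP hZY) hZP hY hYP
      (fun e => hZY (cent_symm e)) hy y1 (cent_le_norm Z (by
        rw [← inv_mul_cancel_left v y, e']
        exact mul_mem (inv_mem (cent_symm (hZP.trans inf_le_right) hv)) (mul_mem hu.2 (h.ab hZ hz))))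
    rw [e2, mul_one] at e'
    rw [e'] at hv
    simpa using mul_mem (mem_sup_left hv) (mem_sup_right (inv_mem hz))
  · obtain ⟨z, hz, e⟩ := h.dec hX hY hn hYP hZ hZP hZY hu
    simpa using mul_mem (mem_sup_left (hs ⟨mul_mem hu (hZP hz), e⟩)) (mem_sup_right (inv_mem hz))

section
variable (hs : ¬ X ≤ qq Y)
include hs

theorem k00 (hy : y ∈ pp Y) (hv : v ∈ X) (h1 : v ≠ 1) (e : ⁅y, v⁆ ∈ Y) : y ∈ N_(X) := by_contra fun h4 =>
  hs (h.swap hX hY hn hYP (pp_le Y hy) (conj_mem_cj y hv) (by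
    simpa [commutatorElement_def] using mul_mem (mem_sup_right e) (mem_sup_left hv)) (by simpa using h1) h4)

theorem i0 (hx : x ∈ X) (hx' : x ∈ pp Y) : x = 1 := by_contra fun h1 => h1 (h.one hX hY hn hx (h.cpp hY (mem_cent.2
  fun _ hy => comm_iff.1 (h.one hX hY hn (comm_mem_right (h.k00 hX hY hn hYP hs hy hx h1 (h.cm hY hy hx')) hx) (h.cm hY hy hx')))))

theorem XN : C_(Y) ≤ N_(pp Y) := (cent_le_norm Y).trans (npp Y)

theorem k0 (hy : y ∈ pp Y) (hv : v ∈ X) (h1 : v ≠ 1) (e : ⁅y, v⁆ ∈ Y) : y ∈ C_(X) := mem_cent.2 fun x hx =>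
  (comm_iff.1 (h.i0 hX hY hn hYP hs (comm_mem_right (h.k00 hX hY hn hYP hs hy hv h1 e) hx)
    (comm_mem_left (h.XN hX hY hn hYP hs (h.XC hX hY hn hYP hx)) hy))).symm

theorem t1 (hy : y ∈ pp Y) (hv : v ∈ X) : ⁅y, v⁆ ∈ pp Y ⊓ C_(X) ∧ ⁅y, v⁆ * ⁅y, v⁆ = 1 := by
  by_cases h1 : v = 1
  · simp [h1]
  have e1 := comm_mem_left (h.XN hX hY hn hYP hs (h.XC hX hY hn hYP hv)) hy
  have e2 : ⁅⁅y, v⁆, v⁆ = ⁅y, v⁆ * ⁅y, v⁆ := by
    simp only [commutatorElement_def, mul_inv_rev, inv_inv, h.inv hX hv]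
    calc _ = y * v * y⁻¹ * v * (v * v) * y * v * y⁻¹ * v := by group
      _ = _ := by rw [h.sq hX hv]; group
  have e3 := h.k0 hX hY hn hYP hs e1 hv h1 (e2 ▸ h.sqp hY e1)
  exact ⟨⟨e1, e3⟩, e2 ▸ comm_iff.2 (mem_cent.1 e3 v hv).symm⟩

theorem i1 (h1 : u ∈ pp X) (h2 : u ∈ pp Y) : u ∈ Y := by
  obtain ⟨v, hv, y, hy, rfl⟩ := (h.mem_W hX hY hn hYP).1 (h.b5 hX hY hn hYP h1 (mem_cent.2 fun d hd => comm_iff.1
    (h.i0 hX hY hn hYP hs (h.cm hX hd.1 h1) (comm_mem_right (h.XN hX hY hn hYP hs hd.2) h2))))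
  rwa [h.i0 hX hY hn hYP hs hv ((mul_mem_cancel_right (h.le_pp hY hy)).1 h2), one_mul]

theorem fin (e : pp Y ≤ C_(X)) : False :=
  hn (eq_of_le_of_card_ge ((cent_symm e).trans (h.cpp hY)) (h.card hY hX).le)

theorem t4 : pp X ⊓ C_(Y) ≤ X ⊔ Y := by
  have hD : pp X ⊓ C_(Y) ≤ N_(Y) := inf_le_right.trans (cent_le_norm Y)
  have hD' : pp X ⊓ C_(Y) ≤ N_(pp Y) := hD.trans (npp Y)
  obtain ⟨v, hv, v1⟩ := h.ex hX hY hn
  have t2 : ⁅pp Y ⊓ C_(X), pp X ⊓ C_(Y)⁆ ≤ Y := commutator_le.2 fun r hr d hd => h.i1 hX hY hn hYP hs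
    (comm_mem_right (npp X (cent_le_norm X hr.2)) hd.1) (comm_mem_left (hD' hd) hr.1)
  have t3 : ⁅pp X ⊓ C_(Y), pp Y⁆ ≤ pp Y ⊓ C_(X) := fun r hr => by
    have e := H26.three_subgroups hD (pp_le Y) ((h.XC hX hY hn hYP).trans (cent_le_norm Y))
      ((comm_mono (commutator_le.2 fun y hy x hx => (h.t1 hX hY hn hYP hs hy hx).1) le_rfl).trans t2)
      (by rw [comm_eq_bot.2 (cent_symm (show pp X ⊓ C_(Y) ≤ C_(X) from inf_le_left.trans inf_le_right))]; simp)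
    exact ⟨comm_le_right hD' hr, h.k0 hX hY hn hYP hs (comm_le_right hD' hr) hv v1 (e (commutator_mem_commutator hr hv))⟩
  have e := H26.three_subgroups hD hD (pp_le Y) ((comm_mono t3 le_rfl).trans t2)
    (by rw [comm_comm (pp Y)]; exact (comm_mono t3 le_rfl).trans t2)
  refine fun u hu => h.b5 hX hY hn hYP hu.1 (comm_eq_bot.1 (by_contra fun e1 => ?_) hu)
  obtain ⟨x, hx, x1⟩ := exists_mem_ne_one e1
  refine h.fin hX hY hn hYP hs fun y hy => h.k0 hX hY hn hYP hs hy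
    (((comm_mono inf_le_left inf_le_left).trans (h.der hX)) hx) x1 ?_
  rw [← commutatorElement_inv]
  exact inv_mem (e (commutator_mem_commutator hx hy))

theorem s1 (hT : T ∈ 𝓥) (hTP : T ≤ pp Y) (hYT : Y ≠ T) (hc : pp Y ⊓ C_(T) ≤ Y ⊔ T) : T ≤ C_(X) := fun w hw => by
  by_cases w1 : w = 1
  · simp [w1]
  obtain ⟨v, hv, v1⟩ := h.ex hX hY hn
  obtain ⟨r1, r2⟩ := h.t1 hX hY hn hYP hs (hTP hw) hv
  by_cases e : ⁅w, v⁆ ∈ Y
  · exact h.k0 hX hY hn hYP hs (hTP hw) hv v1 e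
  have e1 := conj_mem_of_norm (h.XN hX hY hn hYP hs (h.XC hX hY hn hYP hv)) (hTP hw)
  have e2 : v * w * v⁻¹ ∈ Y ⊔ T := hc ⟨e1, h.b1 hY hT hYT hTP e1 (h.cent hT hw w1 (by
    rw [commutatorElement_def, h.inv hT hw, h.inv hX hv] at r2
    rw [h.inv hX hv]
    calc _ = w * (w * (v * w * v)) * w := by rw [← mul_assoc, h.sq hT hw, one_mul]
      _ = w * (w * v * w * v * (w * v * w * v)) * (w * (v * w * v))⁻¹ * w := by group
      _ = w * (v⁻¹ * w⁻¹ * v⁻¹) * (w⁻¹ * w) := by rw [r2]; group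
      _ = _ := by rw [h.inv hT hw, h.inv hX hv, h.sq hT hw, mul_one]))⟩
  obtain ⟨p, hp, t, ht, e3⟩ := h.b6 hY hT hYT hTP (show ⁅w, v⁆ ∈ Y ⊔ T by
    have := (Y ⊔ T).mul_mem (mem_sup_right hw) e2
    rwa [commutatorElement_def, h.inv hT hw, mul_assoc, mul_assoc, ← mul_assoc v]) e
  have hT1 := h.cj hT p
  have e4 : X ≤ C_(BG.cj p T) := h.stepA hT1 hX (fun e' => v1 (h.i0 hX hY hn hYP hs hv
    (cj_le_of_mem hTP hp (e' ▸ hv)))) fun x hx => h.cent hT1 (e3 ▸ conj_mem_cj p ht) (fun e' => e (by rw [e']; exact one_mem _))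
      (mem_cent.1 r1.2 x hx)
  exact (h.cjW hY hT hYT hTP hp ▸ sup_le (hYP.trans inf_le_right) (cent_symm e4) : Y ⊔ T ≤ C_(X)) (mem_sup_right hw)

end

theorem sym (hg : BG.cj g X = Y) : X ≤ qq Y := by
  by_contra hs
  obtain ⟨Z, hZ, hZP, hZY⟩ := h.b3 hX hY hn hYP
  have t4 := h.t4 hX hY hn hYP hs
  obtain ⟨s2, s3⟩ := h.small hX hY hn hYP hZ hZP hZY t4
  have e : ∀ T ∈ 𝓥, T ≤ pp X → X ≠ T → pp X ⊓ C_(T) ≤ X ⊔ T → BG.cj g T ≤ C_(X) := fun T a b c d =>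
    h.s1 hX hY hn hYP hs (h.cj a g) (by rw [← hg, ← pp_cj]; exact cj_mono g b) (fun e => c (cj_inj.1 (hg.trans e)))
      (by rw [← hg, ← pp_cj, ← cj_cent, ← cj_inf, ← cj_sup]; exact cj_mono g d)
  refine h.fin hX hY hn hYP hs ?_
  have e2 := cj_mono g s3
  rw [pp_cj, cj_sup, cj_sup, hg] at e2
  exact e2.trans (sup_le (sup_le (hYP.trans inf_le_right) (e Y hY hYP hn t4))
    (e Z hZ hZP (h.neZ hX hY hn hYP hZ hZP hZY) s2))

theorem cjv (hy : y ∈ Y) (h1 : y ≠ 1) (hv : v ∈ X) : ∃ p : G, p * y * p⁻¹ = v * y := by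
  obtain ⟨Z, hZ, hZP, hZY⟩ := h.b3 hX hY hn hYP
  obtain ⟨z, -, e⟩ := h.b4 hX hY hn hYP hZ hZP hZY hy h1 (inv_mem hv)
  exact ⟨z, by rw [← inv_inv v, ← e, commutatorElement_def]; group⟩

theorem idx : (C_(X ⊔ Y)).relIndex (pp X) = Nat.card X := by
  obtain ⟨Z, hZ, hZP, hZY⟩ := h.b3 hX hY hn hYP
  have e1 : C_(X ⊔ Y) ⊓ pp X ⊔ Z = pp X := le_antisymm (sup_le inf_le_right hZP) fun p hp => by
    obtain ⟨z, hz, e⟩ := h.dec hX hY hn hYP hZ hZP hZY hp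
    have e2 : p * z ∈ C_(X ⊔ Y) ⊓ pp X :=
      ⟨by rw [cent_sup]; exact ⟨(mul_mem hp (hZP hz)).2, e⟩, mul_mem hp (hZP hz)⟩
    simpa using mul_mem (mem_sup_left e2) (mem_sup_right (inv_mem hz))
  rw [← inf_relIndex_right]
  nth_rewrite 2 [← e1]
  rw [relIndex_sup (hZP.trans (norm_inf (norm_cent (h.nW hX hY hn hYP)) (le_norm _))), ← inf_relIndex_right,
    show C_(X ⊔ Y) ⊓ pp X ⊓ Z = ⊥ from eq_bot_iff.2 fun z hz => by_contra fun z1 =>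
      h.nz hX hY hn hYP hZ hZP hZY hz.2 z1 (cent_le_norm Y (cent_anti le_sup_right hz.1.1)),
    relIndex_bot_left, h.card hX hZ]

theorem W_inf : (X ⊔ Y) ⊓ C_(pp X) = X :=
  le_antisymm (inf_le_right.trans (h.cpp hX)) (le_inf le_sup_left (cent_symm inf_le_right))

variable (hXP : X ≤ pp Y)
include hXP

theorem qq_eq : pp X = qq X := by
  obtain ⟨y, hy, y1⟩ := h.ex hY hX hn.symm
  have e : ∀ v ∈ X, v ≠ 1 → ∃ k : G, k * y * k⁻¹ = v := fun v hv v1 => by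
    obtain ⟨p, hp⟩ := h.cjv hX hY hn hYP hy y1 hv
    obtain ⟨q, hq⟩ := h.cjv hY hX hn.symm hXP hv v1 hy
    refine ⟨q⁻¹ * p, ?_⟩
    calc _ = q⁻¹ * (p * y * p⁻¹) * q := by group
      _ = v := by rw [hp, mem_cent.1 (hYP hy).2 v hv, ← hq]; group
  obtain ⟨x, hx, x1⟩ := h.ex hX hY hn
  obtain ⟨z, hz, z1⟩ := exists_mem_ne_one
    (pg_fix_ne_bot Nat.prime_two (qq_pg X) (h.pg hX) (qq_le X) (ne_bot_of_mem hx x1))
  refine inf_eq_left.2 (cent_symm fun v hv => ?_)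
  by_cases v1 : v = 1
  · simp [v1]
  obtain ⟨k, hk⟩ := e v hv v1
  obtain ⟨l, hl⟩ := e z hz.1 z1
  have e2 : v = k * l⁻¹ * z * (k * l⁻¹)⁻¹ := by rw [← hk, ← hl]; group
  rw [e2]
  exact conj_mem_of_norm (norm_cent (nqq X) (cj_eq_self_iff.1
    (h.ti (h.cj hX _) hX (e2 ▸ conj_mem_cj _ hz.1) hv v1))) hz.2

theorem nH : pp X ⊔ pp Y ≤ N_(X ⊔ Y) := sup_le (h.nW hX hY hn hYP) (sup_comm X Y ▸ h.nW hY hX hn.symm hXP)

theorem wf : H26.WF 2 (pp X ⊔ pp Y) (pp X) N_(X) (X ⊔ Y) := by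
  obtain ⟨x, hx, x1⟩ := h.ex hX hY hn
  have e : ∀ {g}, g ∈ pp X ⊔ pp Y → g ∉ N_(X) → ∃ p ∈ pp X, BG.cj g X = BG.cj p Y := fun {g} a b =>
    (h.pt hX hY hn hYP (h.cj hX g) (conj_mem_cj g hx) (conj_mem_of_norm (h.nH hX hY hn hYP hXP a) (mem_sup_left hx))
      (by simpa using x1)).resolve_left fun e => b (cj_eq_self_iff.1 e)
  have e0 : ¬ X ≤ C_(pp Y) := fun e => hn (eq_of_le_of_card_ge (e.trans (h.cpp hY)) (h.card hY hX).le)
  have ab : IsMulCommutative ↥(X ⊔ Y) :=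
    abelian_sup (abelian_iff.2 (h.ab hX)) (abelian_iff.2 (h.ab hY)) (h.XC hX hY hn hYP)
  refine ⟨le_sup_left, pp_le X, ?_, fun {g} a b => ?_, fun g a b s hs => ?_, ab, fun w hw => ?_,
    h.nH hX hY hn hYP hXP, ?_, ?_, ?_⟩
  · obtain ⟨g, a, b⟩ := SetLike.not_le_iff_exists.1 fun e' => e0 (cent_symm e')
    exact ⟨g, mem_sup_right a, fun c => b (h.b1 hY hX hn.symm hXP a c)⟩
  · obtain ⟨p, hp, e'⟩ := e a b
    change pp X ⊔ BG.cj g (pp X) = _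
    rw [pp_cj, e', ← pp_cj, ← cj_of_mem (show p ∈ pp X ⊔ pp Y from mem_sup_left hp), cj_sup, cj_of_mem hp]
  · obtain ⟨p, hp, e'⟩ := e a b
    have e2 : s ∈ BG.cj g N_(X) := hs.2
    rw [cj_norm, e'] at e2
    rw [← h.cjW hX hY hn hYP hp, cent_sup]
    exact ⟨hs.1.2, h.b1 hX (h.cj hY p) (fun c => b (cj_eq_self_iff.1 (e'.trans c.symm))) (cj_le_of_mem hYP hp) hs.1 e2⟩
  · obtain ⟨v, hv, y, hy, rfl⟩ := (h.mem_W hX hY hn hYP).1 hw
    rw [Commute.mul_pow (mem_cent.1 (hYP hy).2 v hv), pow_two, pow_two, h.sq hX hv, h.sq hY hy, one_mul]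
  · exact ((comm_mono (h.W_le hX hY hn hYP) le_rfl).trans (h.der hX)).trans (cent_symm inf_le_right)
  · rw [h.W_inf hX hY hn hYP, h.idx hX hY hn hYP, relIndex_sup (hYP.trans (pp_le X)), h.card hX hY]
    exact Nat.le_of_dvd Nat.card_pos (BG.relIndex_dvd_card _ _)
  · rw [h.W_inf hX hY hn hYP]
    exact fun e' => e0 (e'.trans (cent_anti le_sup_right))

theorem sl2 [((C_(X ⊔ Y)).subgroupOf (pp X ⊔ pp Y)).Normal] : ∃ (F : Type) (_ : Field F) (_ : Fintype F),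
    Fintype.card F = Nat.card X ∧
      Nonempty (↥(pp X ⊔ pp Y) ⧸ (C_(X ⊔ Y)).subgroupOf (pp X ⊔ pp Y) ≃* Matrix.SpecialLinearGroup (Fin 2) F) := by
  have w := h.wf hX hY hn hYP hXP
  obtain ⟨n, hn', e⟩ := w.card_pow
  have := Fintype.ofFinite (GaloisField 2 n)
  have c : Fintype.card (GaloisField 2 n) = 2 ^ n := by
    rw [← Nat.card_eq_fintype_card, GaloisField.card 2 n (by omega)]
  obtain ⟨ρ, r1, r2⟩ := H26.ActsAs.exists_hom (w.nat (c.trans e.symm))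
  refine ⟨GaloisField 2 n, inferInstance, this, c.trans (e.symm.trans (h.idx hX hY hn hYP)),
    ⟨(QuotientGroup.quotientMulEquivOfEq (Subgroup.ext fun x => ?_)).trans
      (QuotientGroup.quotientKerEquivOfSurjective ρ (MonoidHom.range_eq_top.1 r1))⟩⟩
  rw [MonoidHom.mem_ker, r2, mem_subgroupOf, mem_cent]
  refine forall₂_congr fun u _ => ⟨fun a => by rw [comm_iff.2 a.symm]; exact one_mem _, fun a => (comm_iff.1 ?_).symm⟩
  exact h.one hX hY hn (h.cpp hX (cent_anti le_sup_left a.2)) (h.cpp hY (cent_anti le_sup_right a.2))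

end Hy
end H17.TV
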